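import Mathlib
import Cfsg.Prelude.Def_GeometricClasses
import Cfsg.Agent.Lib.Omega.SLConj
import Cfsg.Agent.Lib.Omega.FreeInverted

/-!
Elements of prime order of the special linear group that preserve no sesquilinear form of a given kind up to
a scalar: eigenvalue pairing, diagonal test elements, test elements read off from field extensions.
-/

set_option autoImplicit false

open Polynomial
open scoped Matrix

namespace CfsgLib.Derangements.FormPrime

variable {F : Type*} [Field F]

section Form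

variable {ι : Type} [Fintype ι] [DecidableEq ι]

/-- A left-linear, right-`τ`-semilinear form, non-degenerate on the right, with `τ` involutive. -/
structure IsSesq (τ : F →+* F) (f : (ι → F) → (ι → F) → F) : Prop where
  invol : ∀ a, τ (τ a) = a
  add_left : ∀ u u' v, f (u + u') v = f u v + f u' v
  smul_left : ∀ (a : F) u v, f (a • u) v = a * f u v
  add_right : ∀ u v v', f u (v + v') = f u v + f u v'
  smul_right : ∀ (a : F) u v, f u (a • v) = τ a * f u v
  nondeg : ∀ v, (∀ u, f u v = 0) → v = 0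

variable {τ : F →+* F} {f : (ι → F) → (ι → F) → F}

theorem IsSesq.sum_left (h : IsSesq τ f) {κ : Type*} (s : Finset κ) (u : κ → ι → F) (v : ι → F) :
    f (∑ i ∈ s, u i) v = ∑ i ∈ s, f (u i) v :=
  map_sum (AddMonoidHom.mk' (fun w => f w v) (fun a b => h.add_left a b v)) u s

theorem IsSesq.sum_right (h : IsSesq τ f) {κ : Type*} (s : Finset κ) (u : ι → F) (v : κ → ι → F) :
    f u (∑ i ∈ s, v i) = ∑ i ∈ s, f u (v i) :=
  map_sum (AddMonoidHom.mk' (fun w => f u w) (fun a b => h.add_right u a b)) v s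

/-- The pullback of a form along an invertible matrix. -/
theorem IsSesq.comp (h : IsSesq τ f) (g : GL ι F) :
    IsSesq τ (fun u v => f ((g : Matrix ι ι F) *ᵥ u) ((g : Matrix ι ι F) *ᵥ v)) where
  invol := h.invol
  add_left u u' v := by simp only [Matrix.mulVec_add, h.add_left]
  smul_left a u v := by simp only [Matrix.mulVec_smul, h.smul_left]
  add_right u v v' := by simp only [Matrix.mulVec_add, h.add_right]
  smul_right a u v := by simp only [Matrix.mulVec_smul, h.smul_right]
  nondeg v hv := by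
    refine Matrix.mulVec_injective_of_isUnit (A := (g : Matrix ι ι F)) g.isUnit ?_
    rw [Matrix.mulVec_zero]
    refine h.nondeg _ fun u => ?_
    have := hv (((g⁻¹ : GL ι F) : Matrix ι ι F) *ᵥ u)
    simpa only [Matrix.mulVec_mulVec, ← Units.val_mul, mul_inv_cancel, Units.val_one, Matrix.one_mulVec] using this

/-- If `y` multiplies `f` by `c` and is conjugate to `x`, then `x` multiplies a pullback of `f` by `c`. -/
theorem similar_pullback {g x : GL ι F} {c : F}
    (h : ∀ u v, f (((g⁻¹ * x * g : GL ι F) : Matrix ι ι F) *ᵥ u) (((g⁻¹ * x * g : GL ι F) : Matrix ι ι F) *ᵥ v) = c * f u v)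
    (u v : ι → F) :
    f (((g⁻¹ : GL ι F) : Matrix ι ι F) *ᵥ ((x : Matrix ι ι F) *ᵥ u))
      (((g⁻¹ : GL ι F) : Matrix ι ι F) *ᵥ ((x : Matrix ι ι F) *ᵥ v)) =
      c * f (((g⁻¹ : GL ι F) : Matrix ι ι F) *ᵥ u) (((g⁻¹ : GL ι F) : Matrix ι ι F) *ᵥ v) := by
  have key : ∀ w : ι → F, ((g⁻¹ * x * g : GL ι F) : Matrix ι ι F) *ᵥ (((g⁻¹ : GL ι F) : Matrix ι ι F) *ᵥ w) =
      ((g⁻¹ : GL ι F) : Matrix ι ι F) *ᵥ ((x : Matrix ι ι F) *ᵥ w) := fun w => by
    rw [Matrix.mulVec_mulVec, Matrix.mulVec_mulVec, ← Units.val_mul, ← Units.val_mul,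
      mul_inv_cancel_right]
  rw [← key, ← key, h]

variable (h : IsSesq τ f)
include h

theorem IsSesq.adjoint_aeval {X Y : Matrix ι ι F} (hXY : ∀ u v, f (X *ᵥ u) v = f u (Y *ᵥ v)) (P : F[X])
    (u v : ι → F) : f (aeval X P *ᵥ u) v = f u (aeval Y (P.map τ) *ᵥ v) := by
  induction P using Polynomial.induction_on' generalizing u v with
  | add P R hP hR => simp only [map_add, Polynomial.map_add, Matrix.add_mulVec, h.add_left, h.add_right, hP, hR]
  | monomial i a =>
    simp only [Polynomial.map_monomial, aeval_monomial, ← Algebra.smul_def, Matrix.smul_mulVec, h.smul_left,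
      h.smul_right, h.invol]
    congr 1
    induction i generalizing u v with
    | zero => simp
    | succ i ih =>
      rw [pow_succ, pow_succ', ← Matrix.mulVec_mulVec, ← Matrix.mulVec_mulVec, ih, hXY]

/-- A polynomial relation of `x` gives the conjugate relation of `τ c • x⁻¹`. -/
theorem IsSesq.aeval_inv_eq_zero {x : GL ι F} {c : F}
    (hc : ∀ u v, f ((x : Matrix ι ι F) *ᵥ u) ((x : Matrix ι ι F) *ᵥ v) = c * f u v) {P : F[X]}
    (hP : aeval (x : Matrix ι ι F) P = 0) :
    aeval (τ c • ((x⁻¹ : GL ι F) : Matrix ι ι F)) (P.map τ) = 0 := by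
  have hXY : ∀ u v, f ((x : Matrix ι ι F) *ᵥ u) v = f u ((τ c • ((x⁻¹ : GL ι F) : Matrix ι ι F)) *ᵥ v) := fun u v => by
    rw [Matrix.smul_mulVec, h.smul_right, h.invol, ← hc, Matrix.mulVec_mulVec v, ← Units.val_mul, mul_inv_cancel,
      Units.val_one, Matrix.one_mulVec]
  refine Matrix.ext_of_mulVec_single fun i => ?_
  rw [Matrix.zero_mulVec]
  refine h.nondeg _ fun u => ?_
  rw [← h.adjoint_aeval hXY, hP, Matrix.zero_mulVec, ← zero_smul F u, h.smul_left, zero_mul]

theorem IsSesq.exists_ne_zero [Nonempty ι] : ∃ u v, f u v ≠ 0 := by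
  by_contra hne
  push Not at hne
  obtain ⟨i⟩ := ‹Nonempty ι›
  have := congrFun (h.nondeg (Pi.single i 1) fun u => hne u _) i
  simp at this

/-- The multiplier of an element whose `k`-th power is scalar. -/
theorem IsSesq.multiplier_pow [Nonempty ι] {x : GL ι F} {c z : F}
    (hc : ∀ u v, f ((x : Matrix ι ι F) *ᵥ u) ((x : Matrix ι ι F) *ᵥ v) = c * f u v) {k : ℕ}
    (hz : ((x ^ k : GL ι F) : Matrix ι ι F) = z • 1) : c ^ k = z * τ z := by
  obtain ⟨u, v, huv⟩ := h.exists_ne_zero
  have hk : ∀ i : ℕ, f (((x ^ i : GL ι F) : Matrix ι ι F) *ᵥ u) (((x ^ i : GL ι F) : Matrix ι ι F) *ᵥ v) =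
      c ^ i * f u v := by
    intro i
    induction i with
    | zero => simp
    | succ i ih =>
      rw [pow_succ', Units.val_mul, ← Matrix.mulVec_mulVec, ← Matrix.mulVec_mulVec, hc, ih, pow_succ]
      ring
  have hk' := hk k
  rw [hz, Matrix.smul_mulVec, Matrix.smul_mulVec, Matrix.one_mulVec, Matrix.one_mulVec, h.smul_left, h.smul_right,
    ← mul_assoc] at hk'
  exact (mul_right_cancel₀ huv hk').symm

/-- The Gram matrix of a basis is invertible. -/
theorem IsSesq.gram_det_ne_zero (b : Module.Basis ι F (ι → F)) :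
    (Matrix.of fun i j => f (b i) (b j)).det ≠ 0 := by
  classical
  intro h0
  obtain ⟨w, hw0, hw⟩ := Matrix.exists_mulVec_eq_zero_iff.2 h0
  have hzero : ∀ i, f (b i) (∑ j, τ (w j) • b j) = 0 := fun i => by
    rw [h.sum_right]
    have := congrFun hw i
    simpa [Matrix.mulVec, dotProduct, h.smul_right, h.invol, mul_comm] using this
  have hv : (∑ j, τ (w j) • b j) = 0 := h.nondeg _ fun u => by
    conv_lhs => rw [← b.sum_repr u, h.sum_left]
    exact Finset.sum_eq_zero fun i _ => by rw [h.smul_left, hzero i, mul_zero]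
  refine hw0 (funext fun j => ?_)
  have := Fintype.linearIndependent_iff.1 b.linearIndependent _ hv j
  rwa [map_eq_zero_iff τ τ.injective] at this

/-- The determinant of a similitude. -/
theorem IsSesq.det_mul_det {X : Matrix ι ι F} {c : F} (hc : ∀ u v, f (X *ᵥ u) (X *ᵥ v) = c * f u v) :
    X.det * τ X.det = c ^ Fintype.card ι := by
  set M : Matrix ι ι F := Matrix.of fun i j => f (Pi.basisFun F ι i) (Pi.basisFun F ι j) with hMdef
  have hM : Xᵀ * M * X.map τ = c • M := by
    ext i j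
    have hcol : ∀ k, X *ᵥ (Pi.basisFun F ι k) = ∑ l, X l k • Pi.basisFun F ι l := fun k => by
      ext l
      simp [Pi.single_apply]
    rw [Matrix.smul_apply, smul_eq_mul, hMdef, Matrix.of_apply, ← hc, hcol, hcol, h.sum_left]
    simp only [Matrix.mul_apply, Matrix.transpose_apply, Matrix.map_apply, Matrix.of_apply, Finset.sum_mul,
      h.smul_left, h.sum_right, h.smul_right, Finset.mul_sum]
    rw [Finset.sum_comm]
    refine Finset.sum_congr rfl fun k _ => Finset.sum_congr rfl fun l _ => ?_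
    ring
  have h2 := congrArg Matrix.det hM
  rw [Matrix.det_mul, Matrix.det_mul, Matrix.det_transpose, Matrix.det_smul, ← RingHom.mapMatrix_apply,
    ← RingHom.map_det] at h2
  refine mul_right_cancel₀ (h.gram_det_ne_zero (Pi.basisFun F ι)) ?_
  linear_combination h2

/-- The eigenvalues of a similitude with an eigenbasis pair off to the multiplier. -/
theorem IsSesq.exists_pairing (b : Module.Basis ι F (ι → F)) (d : ι → F) {x : Matrix ι ι F} {c : F}
    (hd : ∀ i, x *ᵥ b i = d i • b i) (hc : ∀ u v, f (x *ᵥ u) (x *ᵥ v) = c * f u v) :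
    ∃ π : Equiv.Perm ι, ∀ i, d i * τ (d (π i)) = c := by
  classical
  let M : Matrix ι ι F := Matrix.of fun i j => f (b i) (b j)
  have hM : M.det ≠ 0 := h.gram_det_ne_zero b
  rw [Matrix.det_apply] at hM
  obtain ⟨σ, -, hσ⟩ := Finset.exists_ne_zero_of_sum_ne_zero hM
  have hne : ∀ i, f (b (σ i)) (b i) ≠ 0 := fun i hi => hσ (by
    have h0 : (∏ j, M (σ j) j) = 0 := Finset.prod_eq_zero (Finset.mem_univ i) hi
    exact smul_eq_zero_of_right _ h0)
  refine ⟨σ⁻¹, fun i => ?_⟩
  have hi := hne (σ⁻¹ i)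
  rw [show σ (σ⁻¹ i) = i from σ.apply_symm_apply i] at hi
  refine mul_right_cancel₀ hi ?_
  rw [← hc, hd, hd, h.smul_left, h.smul_right, mul_assoc]

end Form

section Diag

variable {n : ℕ}

/-- A diagonal matrix of determinant one. -/
theorem exists_diag_sl (d : Fin n → F) (hd : ∏ i, d i = 1) :
    ∃ x ∈ Cfsg.Geo.specialLinear (Fin n) F, (x : Matrix (Fin n) (Fin n) F) = Matrix.diagonal d := by
  have hdet : (Matrix.diagonal d).det = 1 := by rw [Matrix.det_diagonal, hd]
  have hne : (Matrix.diagonal d).det ≠ 0 := by rw [hdet]; exact one_ne_zero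
  exact ⟨Matrix.GeneralLinearGroup.mkOfDetNeZero (Matrix.diagonal d) hne,
    Omega.mem_specialLinear.2 hdet, rfl⟩

/-- Exponent pattern `1, 1, -2, 0, …, 0`. -/
theorem exists_pattern_one {τ : F →+* F} {r : ℕ} (hr : r.Prime) (hr2 : r ≠ 2) {ω : F} (hω : ω ^ r = 1)
    (hω1 : ω ≠ 1) (hτ : τ ω = ω) (hn : 3 ≤ n) (hrn : ¬ r ∣ n ∨ 7 ≤ n) :
    ∃ d : Fin n → F, ∏ i, d i = 1 ∧ (∀ i, d i ^ r = 1) ∧
      ∀ (π : Equiv.Perm (Fin n)) (c : F), ¬ ∀ i, d i * τ (d (π i)) = c := by
  classical
  have hr3 : 3 ≤ r := by have := hr.two_le; omega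
  have hpow : ∀ k, 0 < k → k < r → ω ^ k ≠ 1 := fun k hk0 hk h => by
    have h' := pow_gcd_eq_one.2 ⟨h, hω⟩
    rw [Nat.Coprime.gcd_eq_one (Nat.Coprime.symm (hr.coprime_iff_not_dvd.2 fun hd => by
      have := Nat.le_of_dvd hk0 hd; omega)), pow_one] at h'
    exact hω1 h'
  let d : Fin n → F := fun i => if (i : ℕ) < 2 then ω else if (i : ℕ) = 2 then ω ^ (r - 2) else 1
  let i₀ : Fin n := ⟨0, by omega⟩
  let i₁ : Fin n := ⟨1, by omega⟩
  let i₂ : Fin n := ⟨2, by omega⟩
  refine ⟨d, ?_, fun i => ?_, fun π c h => ?_⟩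
  · rw [← Finset.prod_subset (Finset.subset_univ ({i₀, i₁, i₂} : Finset (Fin n))) fun i _ hi => ?_]
    · rw [Finset.prod_insert (by simp [i₀, i₁, i₂]), Finset.prod_insert (by simp [i₁, i₂]), Finset.prod_singleton]
      simp only [d, i₀, i₁, i₂]
      norm_num
      rw [← mul_assoc, ← pow_two, ← pow_add, show 2 + (r - 2) = r by omega, hω]
    · simp only [Finset.mem_insert, Finset.mem_singleton, i₀, i₁, i₂, Fin.ext_iff, not_or] at hi
      simp only [d]
      rw [if_neg (by omega), if_neg (by omega)]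
  · simp only [d]
    split_ifs
    · exact hω
    · rw [← pow_mul, mul_comm, pow_mul, hω, one_pow]
    · exact one_pow r
  · have hτd : ∀ i, τ (d i) = d i := fun i => by
      simp only [d]; split_ifs <;> simp [hτ]
    have hd3 : ∀ i, d i = ω ∨ d i = ω ^ (r - 2) ∨ d i = 1 := fun i => by
      simp only [d]; split_ifs <;> simp
    have hdr : ∀ i, d i ^ r = 1 := fun i => by
      rcases hd3 i with e | e | e <;> rw [e]
      · exact hω
      · rw [← pow_mul, mul_comm, pow_mul, hω, one_pow]
      · exact one_pow r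
    have hc : c = 1 := by
      rcases hrn with hrn | hn7
      · have h1 : c ^ r = 1 := by rw [← h i₀, hτd, mul_pow, hdr, hdr, one_mul]
        have h2 : c ^ n = 1 := by
          have hp : ∏ i, d i * τ (d (π i)) = c ^ n := by
            rw [Finset.prod_congr rfl fun i _ => h i, Finset.prod_const, Finset.card_univ, Fintype.card_fin]
          rw [← hp, Finset.prod_mul_distrib, Equiv.prod_comp π fun i => τ (d i)]
          simp only [hτd]
          have hone : ∏ i, d i = 1 := by
            rw [← Finset.prod_subset (Finset.subset_univ ({i₀, i₁, i₂} : Finset (Fin n))) fun i _ hi => ?_]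
            · rw [Finset.prod_insert (by simp [i₀, i₁, i₂]), Finset.prod_insert (by simp [i₁, i₂]),
                Finset.prod_singleton]
              simp only [d, i₀, i₁, i₂]
              norm_num
              rw [← mul_assoc, ← pow_two, ← pow_add, show 2 + (r - 2) = r by omega, hω]
            · simp only [Finset.mem_insert, Finset.mem_singleton, i₀, i₁, i₂, Fin.ext_iff, not_or] at hi
              simp only [d]
              rw [if_neg (by omega), if_neg (by omega)]
          rw [hone, one_mul]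
        simpa [(hr.coprime_iff_not_dvd.2 hrn).gcd_eq_one] using pow_gcd_eq_one.2 ⟨h1, h2⟩
      · obtain ⟨i, hi, hπi⟩ : ∃ i : Fin n, 3 ≤ (i : ℕ) ∧ 3 ≤ (π i : ℕ) := by
          by_contra hne
          push Not at hne
          let A : Finset (Fin n) := Finset.univ.filter fun i => 3 ≤ (i : ℕ)
          have hsub : A.image π ⊆ Aᶜ := fun j hj => by
            obtain ⟨i, hi, rfl⟩ := Finset.mem_image.1 hj
            simp only [A, Finset.mem_filter, Finset.mem_univ, true_and] at hi
            simp [A, hne i hi]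
          have hA : Aᶜ.card ≤ 3 := by
            refine (Finset.card_le_card (t := ({i₀, i₁, i₂} : Finset (Fin n))) fun i hi => ?_).trans Finset.card_le_three
            simp [A] at hi
            simp only [Finset.mem_insert, Finset.mem_singleton, i₀, i₁, i₂, Fin.ext_iff]
            omega
          have := Finset.card_le_card hsub
          rw [Finset.card_image_of_injective _ π.injective] at this
          rw [Finset.card_compl, Fintype.card_fin] at hA this
          omega
        rw [← h i, hτd]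
        simp only [d]
        rw [if_neg (by omega), if_neg (by omega), if_neg (by omega), if_neg (by omega), one_mul]
    have h0 := h i₀
    rw [hτd, hc] at h0
    have hd0 : d i₀ = ω := by simp [d, i₀]
    rw [hd0] at h0
    rcases hd3 (π i₀) with e | e | e <;> rw [e] at h0
    · exact hpow 2 (by omega) (by omega) (by rw [pow_two, h0])
    · rw [← pow_succ'] at h0
      exact hpow (r - 2 + 1) (by omega) (by omega) h0
    · exact hω1 (by rwa [mul_one] at h0)

/-- Exponent pattern `1, …, 1, 1 - n` for an element of order `r ^ 2`, `n = r`. -/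
theorem exists_pattern_two {τ : F →+* F} {r : ℕ} (hr : r.Prime) (hr2 : r ≠ 2) {w : F} (hw : w ^ (r * r) = 1)
    (hw1 : w ^ r ≠ 1) (hτ : τ w = w) (hrn : n = r) :
    ∃ d : Fin n → F, ∏ i, d i = 1 ∧ (∀ i, d i ^ r = w ^ r) ∧
      ∀ (π : Equiv.Perm (Fin n)) (c : F), ¬ ∀ i, d i * τ (d (π i)) = c := by
  classical
  subst hrn
  have hn3 : 3 ≤ n := by have := hr.two_le; omega
  have hw0 : w ≠ 0 := by rintro rfl; rw [zero_pow (by positivity)] at hw; exact zero_ne_one hw
  let i₀ : Fin n := ⟨0, by omega⟩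
  let d : Fin n → F := fun i => if i = i₀ then (w ^ (n - 1))⁻¹ else w
  refine ⟨d, ?_, fun i => ?_, fun π c h => ?_⟩
  · rw [← Finset.mul_prod_erase Finset.univ d (Finset.mem_univ i₀), Finset.prod_congr rfl (g := fun _ => w)
      fun i hi => if_neg (Finset.ne_of_mem_erase hi), Finset.prod_const, Finset.card_erase_of_mem (Finset.mem_univ _),
      Finset.card_univ, Fintype.card_fin]
    simp only [d, if_true]
    exact inv_mul_cancel₀ (pow_ne_zero _ hw0)
  · simp only [d]
    split_ifs
    · rw [inv_pow, ← pow_mul]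
      refine inv_eq_of_mul_eq_one_right ?_
      rw [← pow_add]
      rw [show (n - 1) * n + n = n * n by
        obtain ⟨k, rfl⟩ : ∃ k, n = k + 1 := ⟨n - 1, by omega⟩
        simp; ring, hw]
    · rfl
  · have hτd : ∀ i, τ (d i) = d i := fun i => by
      simp only [d]; split_ifs <;> simp [hτ]
    obtain ⟨i, hi, hπi⟩ : ∃ i, i ≠ i₀ ∧ π i ≠ i₀ := by
      by_contra hne
      push Not at hne
      let a : Fin n := ⟨1, by omega⟩
      let b : Fin n := ⟨2, by omega⟩
      have ha := hne a (by simp [a, i₀])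
      have hb := hne b (by simp [b, i₀])
      have := π.injective (ha.trans hb.symm)
      simp [a, b] at this
    have hc : c = w * w := by
      rw [← h i, hτd]
      simp only [d, if_neg hi, if_neg hπi]
    have h0 := h i₀
    rw [hτd, hc] at h0
    simp only [d, if_true] at h0
    split_ifs at h0
    · have h2n : w ^ (n * 2) = 1 := by
        have h1 : (w * w) * (w ^ (n - 1) * w ^ (n - 1)) = 1 := by
          rw [← h0, ← mul_inv, inv_mul_cancel₀ (mul_ne_zero (pow_ne_zero _ hw0) (pow_ne_zero _ hw0))]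
        rw [← h1, ← pow_two w, ← pow_add, ← pow_add]
        congr 1; omega
      have : w ^ n = 1 := by
        have := pow_gcd_eq_one.2 ⟨h2n, hw⟩
        rwa [Nat.gcd_mul_left, ((Nat.coprime_primes Nat.prime_two hr).2 (Ne.symm hr2)).gcd_eq_one, mul_one] at this
      exact hw1 this
    · rw [inv_mul_eq_iff_eq_mul₀ (pow_ne_zero _ hw0)] at h0
      refine hw1 (mul_left_cancel₀ hw0 ?_)
      rw [mul_one]
      nth_rw 3 [h0]
      rw [← pow_two w, ← pow_add, ← pow_succ']
      congr 1; omega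

/-- A diagonal element that is a similitude of no form. -/
theorem exists_diag_derangement {τ : F →+* F} {r : ℕ} {z : F} (hn : 0 < n) (d : Fin n → F) (hd : ∏ i, d i = 1)
    (hz : ∀ i, d i ^ r = z) (hnot : ∀ (π : Equiv.Perm (Fin n)) (c : F), ¬ ∀ i, d i * τ (d (π i)) = c) :
    ∃ x ∈ Cfsg.Geo.specialLinear (Fin n) F,
      (∃ z : F, ((x ^ r : GL (Fin n) F) : Matrix (Fin n) (Fin n) F) = z • 1) ∧
      (∀ z : F, (x : Matrix (Fin n) (Fin n) F) ≠ z • 1) ∧
      ∀ f, IsSesq τ f → ∀ c : F,
        (∀ u v, f ((x : Matrix (Fin n) (Fin n) F) *ᵥ u) ((x : Matrix (Fin n) (Fin n) F) *ᵥ v) = c * f u v) → False := by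
  haveI : Nonempty (Fin n) := ⟨⟨0, hn⟩⟩
  obtain ⟨x, hx, hxd⟩ := exists_diag_sl d hd
  refine ⟨x, hx, ⟨z, ?_⟩, fun a ha => ?_, fun f hf c hc => ?_⟩
  · rw [Units.val_pow_eq_pow_val, hxd, Matrix.diagonal_pow, show d ^ r = fun _ => z from funext hz,
      Matrix.smul_one_eq_diagonal]
  · rw [hxd, Matrix.smul_one_eq_diagonal] at ha
    have hda : ∀ i, d i = a := fun i => congrFun (Matrix.diagonal_injective ha) i
    exact hnot 1 (a * τ a) fun i => by rw [hda, hda]
  · obtain ⟨π, hπ⟩ := hf.exists_pairing (Pi.basisFun F (Fin n)) d (x := (x : Matrix (Fin n) (Fin n) F))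
      (fun i => by
        rw [hxd]
        ext j
        simp [Matrix.mulVec_diagonal, Pi.single_apply]
        by_cases hji : j = i <;> simp [hji]) hc
    exact hnot π c hπ

end Diag

section Field

variable [Fintype F]

/-- Evaluating a polynomial at a map that is diagonal on a product. -/
theorem aeval_prod {n k : ℕ} {L : Type*} [Field L] [Algebra F L] (E : (Fin n → F) ≃ₗ[F] L × (Fin k → F))
    (M : Matrix (Fin n) (Fin n) F) (a : L) (b : F)
    (hM : ∀ v, E (M *ᵥ v) = (a * (E v).1, b • (E v).2)) (P : F[X]) (v : Fin n → F) :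
    E (aeval M P *ᵥ v) = (aeval a P * (E v).1, P.eval b • (E v).2) := by
  induction P using Polynomial.induction_on' generalizing v with
  | add P R hP hR =>
    rw [map_add, Matrix.add_mulVec, map_add, hP, hR]
    simp [add_mul, add_smul]
  | monomial i t =>
    simp only [aeval_monomial, ← Algebra.smul_def, Matrix.smul_mulVec, map_smul, eval_monomial]
    suffices E (M ^ i *ᵥ v) = (a ^ i * (E v).1, b ^ i • (E v).2) by
      rw [this]; simp [smul_smul]
    induction i generalizing v with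
    | zero => simp
    | succ i ih =>
      rw [pow_succ, ← Matrix.mulVec_mulVec, ih, hM]
      simp [pow_succ, mul_assoc, smul_smul]

/-- An element of order `r` acting as a root of unity of an extension of degree `e` and trivially elsewhere. -/
theorem exists_field_element (p : ℕ) [Fact p.Prime] [CharP F p] (e n : ℕ) [NeZero e] (hen : e ≤ n) {r : ℕ}
    [Fact r.Prime] (hre : r ∣ Fintype.card F ^ e - 1) (hroot : ∀ s : F, s ^ r = 1 → s = 1) :
    ∃ (x : GL (Fin n) F) (L : Type) (_ : Field L) (_ : Algebra F L) (_ : Finite L) (ζ : L)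
      (E : (Fin n → F) ≃ₗ[F] L × (Fin (n - e) → F)), ζ ^ r = 1 ∧ ζ ≠ 1 ∧ ζ ≠ 0 ∧
      (∀ v, E ((x : Matrix (Fin n) (Fin n) F) *ᵥ v) = (ζ * (E v).1, (1 : F) • (E v).2)) ∧
      (∀ v, E (((x⁻¹ : GL (Fin n) F) : Matrix (Fin n) (Fin n) F) *ᵥ v) = (ζ⁻¹ * (E v).1, (1 : F) • (E v).2)) ∧
      x ∈ Cfsg.Geo.specialLinear (Fin n) F ∧ x ^ r = 1 ∧ ∀ z : F, (x : Matrix (Fin n) (Fin n) F) ≠ z • 1 := by
  classical
  let L := FiniteField.Extension F p e
  letI : Fintype L := Fintype.ofFinite L
  have hcard : Fintype.card L = Fintype.card F ^ e := by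
    have := FiniteField.natCard_extension F p e
    rwa [Nat.card_eq_fintype_card, Nat.card_eq_fintype_card] at this
  obtain ⟨ζ, hζ, hζ1, hζ0⟩ := Omega.exists_root_of_dvd (K := L) (r := r) (by rw [hcard]; exact hre)
  let E : (Fin n → F) ≃ₗ[F] L × (Fin (n - e) → F) := LinearEquiv.ofFinrankEq _ _ (by
    rw [Module.finrank_prod, FiniteField.finrank_extension, Module.finrank_fin_fun, Module.finrank_fin_fun]
    omega)
  let A : (Fin n → F) ≃ₗ[F] (Fin n → F) :=
    E.trans (((Omega.mulEquivLeft ζ hζ0).prodCongr (LinearEquiv.refl F _)).trans E.symm)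
  let B : Matrix (Fin n) (Fin n) F := LinearMap.toMatrix' (A : (Fin n → F) →ₗ[F] (Fin n → F))
  let x : GL (Fin n) F := Matrix.GeneralLinearGroup.mkOfDetNeZero B (by
    rw [LinearMap.det_toMatrix']; exact (LinearEquiv.isUnit_det' A).ne_zero)
  have hx : ∀ v, E ((x : Matrix (Fin n) (Fin n) F) *ᵥ v) = (ζ * (E v).1, (1 : F) • (E v).2) := fun v => by
    show E (B *ᵥ v) = _
    rw [show B *ᵥ v = A v by rw [← Matrix.toLin'_apply, Matrix.toLin'_toMatrix']; rfl]
    simp only [A, LinearEquiv.trans_apply, LinearEquiv.apply_symm_apply, one_smul]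
    rfl
  have hxr : x ^ r = 1 := by
    refine Units.ext (Matrix.toLin'.injective (LinearMap.ext fun v => E.injective ?_))
    have h1 : ∀ i : ℕ, E (((x ^ i : GL (Fin n) F) : Matrix (Fin n) (Fin n) F) *ᵥ v) = (ζ ^ i * (E v).1, (E v).2) := by
      intro i
      induction i with
      | zero => simp
      | succ i ih =>
        rw [pow_succ', Units.val_mul, ← Matrix.mulVec_mulVec, hx, ih]
        simp [pow_succ', mul_assoc]
    simp only [Matrix.toLin'_apply]
    rw [h1, hζ, one_mul, Units.val_one, Matrix.one_mulVec]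
  have hdet : (x : Matrix (Fin n) (Fin n) F).det = 1 := by
    refine hroot _ ?_
    rw [← Matrix.det_pow, ← Units.val_pow_eq_pow_val, hxr, Units.val_one, Matrix.det_one]
  refine ⟨x, L, inferInstance, inferInstance, inferInstance, ζ, E, hζ, hζ1, hζ0, hx, fun v => ?_,
    Omega.mem_specialLinear.2 hdet, hxr, fun z hz => ?_⟩
  · obtain ⟨w, rfl⟩ : ∃ w, (x : Matrix (Fin n) (Fin n) F) *ᵥ w = v :=
      ⟨((x⁻¹ : GL (Fin n) F) : Matrix (Fin n) (Fin n) F) *ᵥ v, by
        rw [Matrix.mulVec_mulVec, ← Units.val_mul, mul_inv_cancel, Units.val_one, Matrix.one_mulVec]⟩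
    rw [Matrix.mulVec_mulVec, ← Units.val_mul, inv_mul_cancel, Units.val_one, Matrix.one_mulVec, hx]
    simp [← mul_assoc, inv_mul_cancel₀ hζ0]
  · have h1 := hx (E.symm (1, 0))
    rw [hz, Matrix.smul_mulVec, Matrix.one_mulVec, map_smul, E.apply_symm_apply] at h1
    have h2 := congrArg Prod.fst h1
    simp [Algebra.smul_def] at h2
    haveI : Nonempty (Fin n) := ⟨⟨0, by have := NeZero.ne e; omega⟩⟩
    have hzr : z ^ r = 1 := by
      refine (algebraMap F L).injective ?_
      rw [map_pow, h2, hζ, map_one]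
    rw [hroot z hzr, map_one] at h2
    exact hζ1 h2.symm

/-- An element of order `r` in an extension of degree `e` preserves no form twisted by `a ↦ a ^ p ^ s` up to a
scalar, if `-1` is not a product `p ^ s q ^ j` modulo `r`. -/
theorem exists_field_derangement (p : ℕ) [Fact p.Prime] [CharP F p] {e n : ℕ} (he : 0 < e) (hen : e ≤ n) {r : ℕ}
    [Fact r.Prime] (hr2 : r ≠ 2) (hre : r ∣ Fintype.card F ^ e - 1) (hroot : ∀ s : F, s ^ r = 1 → s = 1)
    {τ : F →+* F} {s : ℕ} (hτ : ∀ a, τ a = a ^ p ^ s)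
    (hcond : ∀ j : ℕ, ((p ^ s * Fintype.card F ^ j : ℕ) : ZMod r) ≠ -1) :
    ∃ x ∈ Cfsg.Geo.specialLinear (Fin n) F,
      (∃ z : F, ((x ^ r : GL (Fin n) F) : Matrix (Fin n) (Fin n) F) = z • 1) ∧
      (∀ z : F, (x : Matrix (Fin n) (Fin n) F) ≠ z • 1) ∧
      ∀ f, IsSesq τ f → ∀ c : F,
        (∀ u v, f ((x : Matrix (Fin n) (Fin n) F) *ᵥ u) ((x : Matrix (Fin n) (Fin n) F) *ᵥ v) = c * f u v) → False := by
  classical
  haveI : NeZero e := ⟨he.ne'⟩
  haveI : Nonempty (Fin n) := ⟨⟨0, by omega⟩⟩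
  obtain ⟨x, L, _, _, _, ζ, E, hζ, hζ1, hζ0, hx, hxi, hxsl, hxr, hxns⟩ :=
    exists_field_element p e n hen hre hroot
  refine ⟨x, hxsl, ⟨1, by rw [hxr, one_smul]; rfl⟩, hxns, fun f hf c hc => ?_⟩
  have hc1 : c = 1 := by
    refine hroot c ?_
    rw [hf.multiplier_pow hc (k := r) (z := 1) (by rw [hxr, one_smul]; rfl), map_one, one_mul]
  let P : F[X] := minpoly F ζ
  have hP : aeval (x : Matrix (Fin n) (Fin n) F) ((X - 1) * P) = 0 := by
    refine Matrix.toLin'.injective (LinearMap.ext fun v => E.injective ?_)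
    rw [map_zero, LinearMap.zero_apply, map_zero, Matrix.toLin'_apply, aeval_prod E _ ζ 1 hx]
    simp [P]
  have h1 := hf.aeval_inv_eq_zero hc hP
  rw [hc1, map_one, one_smul] at h1
  have h2 := aeval_prod E _ ζ⁻¹ 1 hxi (((X - 1) * P).map τ) (E.symm (1, 0))
  rw [h1, Matrix.zero_mulVec, map_zero, E.apply_symm_apply] at h2
  have h3 := congrArg Prod.fst h2
  simp only [Prod.fst_zero, mul_one, Polynomial.map_mul, Polynomial.map_sub, map_X, Polynomial.map_one, map_mul,
    map_sub, aeval_X, map_one] at h3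
  have hroot' : aeval ζ⁻¹ (P.map τ) = 0 :=
    (mul_eq_zero.1 h3.symm).resolve_left (sub_ne_zero.2 fun h => hζ1 (inv_eq_one.1 h))
  haveI : CharP L p := charP_of_injective_algebraMap (algebraMap F L).injective p
  have hψ : Function.Bijective (iterateFrobenius L p s) :=
    Finite.injective_iff_bijective.1 (iterateFrobenius L p s).injective
  obtain ⟨η, hη⟩ := hψ.2 ζ⁻¹
  have hηP : aeval η P = 0 := by
    refine (iterateFrobenius L p s).injective ?_
    rw [map_zero, aeval_def, Polynomial.hom_eval₂, hη]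
    rw [aeval_def, eval₂_map] at hroot'
    rw [show (iterateFrobenius L p s).comp (algebraMap F L) = (algebraMap F L).comp τ from
      RingHom.ext fun a => by simp [iterateFrobenius_def, hτ]]
    exact hroot'
  obtain ⟨g, hg⟩ := minpoly.exists_algEquiv_of_root' (Algebra.IsAlgebraic.isAlgebraic ζ) hηP
  obtain ⟨i, hi⟩ := FiniteField.exists_forall_apply_eq_pow F p L g
  rw [hi] at hg
  rw [iterateFrobenius_def, ← hg, ← pow_mul, Nat.card_eq_fintype_card] at hη
  have hpow : ζ ^ (Fintype.card F ^ i * p ^ s + 1) = 1 := by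
    rw [pow_succ, hη, inv_mul_cancel₀ hζ0]
  have hord : orderOf ζ = r := orderOf_eq_prime hζ hζ1
  have hdvd := orderOf_dvd_of_pow_eq_one hpow
  rw [hord, ← ZMod.natCast_eq_zero_iff] at hdvd
  refine hcond i (eq_neg_of_add_eq_zero_left ?_)
  push_cast at hdvd ⊢
  linear_combination hdvd

/-- A fixed-point-free element of order `r ∣ q ^ n - 1`. -/
theorem exists_field_free (p : ℕ) [Fact p.Prime] [CharP F p] {n : ℕ} (hn : 0 < n) {r : ℕ}
    [Fact r.Prime] (hrn : r ∣ Fintype.card F ^ n - 1) (hroot : ∀ s : F, s ^ r = 1 → s = 1) :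
    ∃ x ∈ Cfsg.Geo.specialLinear (Fin n) F, x ^ r = 1 ∧ (∀ z : F, (x : Matrix (Fin n) (Fin n) F) ≠ z • 1) ∧
      ∀ v, (x : Matrix (Fin n) (Fin n) F) *ᵥ v = v → v = 0 := by
  classical
  haveI : NeZero n := ⟨hn.ne'⟩
  obtain ⟨x, L, _, _, _, ζ, E, hζ, hζ1, hζ0, hx, hxi, hxsl, hxr, hxns⟩ :=
    exists_field_element p n n le_rfl hrn hroot
  refine ⟨x, hxsl, hxr, hxns, fun v hv => E.injective ?_⟩
  have h := congrArg Prod.fst (hx v)
  rw [hv] at h
  simp only at h
  rw [map_zero]
  refine Prod.ext ?_ (funext fun i => absurd i.2 (by omega))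
  show (E v).1 = 0
  exact (mul_eq_zero.1 (show (ζ - 1) * (E v).1 = 0 by rw [sub_mul, one_mul, ← h, sub_self])).resolve_left
    (sub_ne_zero.2 hζ1)

end Field

end CfsgLib.Derangements.FormPrime
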