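import Cfsg.Agent.Lib.Derangements.FormPrime.Basic
import Cfsg.Agent.Lib.Omega.SquareCases
import Cfsg.Agent.Lib.ClassicalForms.Ortho.Standard
import Cfsg.Agent.Lib.Classes.QuadSpace
import Cfsg.Agent.Lib.Classes.QuadDisc
import Cfsg.Agent.Lib.ClassicalLinear.Card
import Cfsg.Agent.Lib.Derangements.SubspaceCounts

/-!
Elements of prime order of the special linear group in odd characteristic against the similitude group of a
non-degenerate quadratic form.
-/

set_option autoImplicit false

open QuadraticMap CfsgLib.Derangements.SubFix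
open scoped Matrix

namespace CfsgLib.Derangements.FormPrime

variable {F : Type*} [Field F] {n : ℕ} {Q : QuadraticForm F (Fin n → F)}

theorem isSesq_polar (hQ : ClassicalForms.Nondeg Q) : IsSesq (RingHom.id F) (polar ⇑Q) where
  invol _ := rfl
  add_left u u' v := polar_add_left Q u u' v
  smul_left a u v := by rw [polar_smul_left, smul_eq_mul]
  add_right u v v' := polar_add_right Q u v v'
  smul_right a u v := by rw [polar_smul_right, smul_eq_mul]; rfl
  nondeg v hv := hQ v fun u => by rw [polar_comm]; exact hv u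

theorem nondegenerate_of (hQ : ClassicalForms.Nondeg Q) : (polarBilin Q).Nondegenerate :=
  Classes.nondegenerate_polarBilin Q hQ

theorem polar_similar {X : Matrix (Fin n) (Fin n) F} {c : F} (h : ∀ v, Q (X *ᵥ v) = c * Q v)
    (u v : Fin n → F) : polar (⇑Q) (X *ᵥ u) (X *ᵥ v) = c * polar (⇑Q) u v := by
  simp only [polar, ← Matrix.mulVec_add, h]; ring

/-- Zeros of an invariant zero set, the element being free. -/
theorem dvd_card_zeros_sub_one [Fintype F] (Q : QuadraticForm F (Fin n → F)) {r : ℕ} [Fact r.Prime]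
    (y : GL (Fin n) F) {c : F} (hc0 : c ≠ 0) (hy : ∀ v, Q ((y : Matrix (Fin n) (Fin n) F) *ᵥ v) = c * Q v)
    (hyr : y ^ r = 1) (hfree : ∀ v, (y : Matrix (Fin n) (Fin n) F) *ᵥ v = v → v = 0) :
    ((Nat.card {v : Fin n → F // Q v = 0} : ℤ) : ZMod r) = 1 := by
  classical
  let A : (Fin n → F) ≃ₗ[F] (Fin n → F) := ClassicalForms.glEquiv y
  have hA : ∀ v, A v = (y : Matrix (Fin n) (Fin n) F) *ᵥ v := fun v => rfl
  let π : Equiv.Perm {v : Fin n → F // Q v = 0} := A.toEquiv.subtypeEquiv fun v => by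
    show Q v = 0 ↔ Q (A v) = 0
    rw [hA, hy, mul_eq_zero, or_iff_right hc0]
  have hπ : ∀ (i : ℕ) v, ((π ^ i) v : Fin n → F) = ((y ^ i : GL (Fin n) F) : Matrix (Fin n) (Fin n) F) *ᵥ v := by
    intro i
    induction i with
    | zero => intro v; simp
    | succ i ih =>
      intro v
      rw [pow_succ', Equiv.Perm.mul_apply]
      show A ((π ^ i) v : Fin n → F) = _
      rw [hA, ih, Matrix.mulVec_mulVec, ← Units.val_mul, ← pow_succ']
  have hπr : π ^ r ^ 1 = 1 := Equiv.ext fun v => Subtype.ext (by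
    rw [pow_one, hπ, hyr, Units.val_one, Matrix.one_mulVec]; rfl)
  have hmod := Equiv.Perm.card_compl_support_modEq hπr
  have hone : π.supportᶜ.card = 1 := by
    rw [Finset.card_eq_one]
    refine ⟨⟨0, Q.map_zero⟩, Finset.eq_singleton_iff_unique_mem.2 ⟨?_, fun v hv => ?_⟩⟩
    · rw [Finset.mem_compl, Equiv.Perm.notMem_support]
      exact Subtype.ext (map_zero A)
    · rw [Finset.mem_compl, Equiv.Perm.notMem_support] at hv
      exact Subtype.ext (hfree _ (congrArg Subtype.val hv))
  rw [hone, ← ZMod.natCast_eq_natCast_iff, ← Nat.card_eq_fintype_card] at hmod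
  push_cast at hmod ⊢
  exact hmod.symm

/-- A transvection is no similitude in odd characteristic. -/
theorem transvection_not_similar (h2 : (2 : F) ≠ 0) (p : ℕ) [Fact p.Prime] [CharP F p] (hn : 2 ≤ n) :
    ∃ x ∈ Cfsg.Geo.specialLinear (Fin n) F,
      (∃ z : F, ((x ^ p : GL (Fin n) F) : Matrix (Fin n) (Fin n) F) = z • 1) ∧
      (∀ z : F, (x : Matrix (Fin n) (Fin n) F) ≠ z • 1) ∧
      ∀ f, IsSesq (RingHom.id F) f → (∀ u v, f u v = f v u) → ∀ c : F,
        (∀ u v, f ((x : Matrix (Fin n) (Fin n) F) *ᵥ u) ((x : Matrix (Fin n) (Fin n) F) *ᵥ v) = c * f u v) → False := by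
  classical
  let i : Fin n := ⟨0, by omega⟩
  let j : Fin n := ⟨1, by omega⟩
  have hij : i ≠ j := by simp [i, j, Fin.ext_iff]
  haveI : Nonempty (Fin n) := ⟨i⟩
  set T : Matrix (Fin n) (Fin n) F := Matrix.transvection i j 1 with hT
  have hdet : T.det = 1 := Matrix.det_transvection_of_ne i j hij 1
  let x : GL (Fin n) F := Matrix.GeneralLinearGroup.mkOfDetNeZero T (by rw [hdet]; exact one_ne_zero)
  have hpow : ∀ k : ℕ, ((x ^ k : GL (Fin n) F) : Matrix (Fin n) (Fin n) F) = Matrix.transvection i j (k : F) := by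
    intro k
    induction k with
    | zero => simp
    | succ k ih =>
      rw [pow_succ, Units.val_mul, ih, show (x : Matrix (Fin n) (Fin n) F) = Matrix.transvection i j 1 from rfl,
        Matrix.transvection_mul_transvection_same _ _ hij, Nat.cast_succ]
  have hxp : ((x ^ p : GL (Fin n) F) : Matrix (Fin n) (Fin n) F) = (1 : F) • 1 := by
    rw [hpow, CharP.cast_eq_zero, Matrix.transvection_zero, one_smul]
  refine ⟨x, Omega.mem_specialLinear.2 hdet, ⟨1, hxp⟩, fun z hz => ?_, fun f hf hsymm c hc => ?_⟩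
  · have := congrFun (congrFun hz i) j
    simp [x, hT, Matrix.transvection, Matrix.one_apply, hij] at this
  · have hc1 : c = 1 := by
      have h1 := hf.multiplier_pow hc hxp
      rw [map_one, mul_one] at h1
      exact frobenius_inj F p (by rw [frobenius_def, frobenius_def, h1, one_pow])
    have happ : ∀ v : Fin n → F, (x : Matrix (Fin n) (Fin n) F) *ᵥ v = v + v j • Pi.single i 1 := fun v => by
      show Matrix.transvection i j 1 *ᵥ v = _
      ext k
      simp [Matrix.transvection, Matrix.add_mulVec, Matrix.single_mulVec, Pi.single_apply]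
      split_ifs <;> simp_all
    have key : ∀ u v, v j * f u (Pi.single i 1) + u j * f (Pi.single i 1) v +
        u j * (v j * f (Pi.single i 1) (Pi.single i 1)) = 0 := fun u v => by
      have h1 := hc u v
      rw [hc1, one_mul, happ, happ, hf.add_left, hf.add_right, hf.add_right, hf.smul_left, hf.smul_left,
        hf.smul_right, hf.smul_right, RingHom.id_apply] at h1
      linear_combination h1
    have hzero : ∀ v, v j = 0 → f (Pi.single i 1) v = 0 := fun v hv => by
      have := key (Pi.single j 1) v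
      simpa [hv] using this
    have hii : f (Pi.single i 1) (Pi.single i 1) = 0 := hzero _ (by simp [Pi.single_apply, Ne.symm hij])
    have hij' : f (Pi.single i 1) (Pi.single j 1) = 0 := by
      have := key (Pi.single j 1) (Pi.single j 1)
      simp [hii, hsymm (Pi.single j 1) (Pi.single i 1), ← two_mul, h2] at this
      exact this
    have := congrFun (hf.nondeg (Pi.single i 1) fun u => by
      rw [hsymm, show u = (u - u j • Pi.single j 1) + u j • Pi.single j 1 by abel, hf.add_right, hf.smul_right,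
        hij', mul_zero, add_zero]
      exact hzero _ (by simp)) i
    simp at this

/-- Isometry groups of similar spaces have the same order. -/
theorem card_orth_congr {W : Type*} [AddCommGroup W] [Module F W] {Q' : QuadraticForm F W}
    (E : (Fin n → F) ≃ₗ[F] W) {c : F} (hc : c ≠ 0) (hE : ∀ v, Q v = c * Q' (E v)) :
    Nat.card (ClassicalForms.orth Q) = Nat.card (ClassicalForms.orth Q') := by
  have h1 : Nat.card (ClassicalForms.orth Q) = Nat.card (ClassicalForms.orth (c⁻¹ • Q)) := by
    refine Nat.card_congr (Equiv.subtypeEquivRight fun g => ?_)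
    simp only [ClassicalForms.mem_orth, QuadraticMap.smul_apply, smul_eq_mul]
    exact ⟨fun h v => by rw [h], fun h v => mul_left_cancel₀ (inv_ne_zero hc) (h v)⟩
  rw [h1]
  exact Nat.card_congr (ClassicalForms.orthCongr E fun v => by
    rw [QuadraticMap.smul_apply, smul_eq_mul, hE, inv_mul_cancel_left₀ hc]).toEquiv

/-- Odd-dimensional forms are similar to the standard one. -/
theorem exists_similar_odd [Finite F] {m : ℕ} (hn : n = 2 * m + 1) (hQ : ClassicalForms.Nondeg Q) :
    ∃ (E : (Fin n → F) ≃ₗ[F] (Unit ⊕ (Fin m ⊕ Fin m) → F)) (c : F), c ≠ 0 ∧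
      ∀ v, Q v = c * ClassicalForms.qOdd m F (E v) := by
  obtain ⟨E, c, -, hc, hE⟩ := Classes.exists_equiv_odd (m := m)
    (by rw [Module.finrank_fin_fun, hn]) Q (nondegenerate_of hQ)
  let sc : (Unit ⊕ (Fin m ⊕ Fin m)) → Fˣ :=
    Sum.elim (fun _ => 1) (Sum.elim (fun _ => Units.mk0 c⁻¹ (inv_ne_zero hc)) fun _ => 1)
  let S : (Unit ⊕ (Fin m ⊕ Fin m) → F) ≃ₗ[F] (Unit ⊕ (Fin m ⊕ Fin m) → F) :=
    LinearEquiv.piCongrRight fun i => LinearEquiv.smulOfUnit (sc i)
  refine ⟨E.trans S, c, hc, fun v => ?_⟩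
  rw [hE, ClassicalForms.qOdd_apply, Cfsg.quadFormOdd, mul_add, Finset.mul_sum]
  simp only [LinearEquiv.trans_apply]
  congr 1
  · simp [S, sc, LinearEquiv.smulOfUnit, Units.smul_def]
  · refine Finset.sum_congr rfl fun i _ => ?_
    simp [S, sc, LinearEquiv.smulOfUnit, Units.smul_def]
    field_simp

theorem card_GL_fin [Fintype F] (n : ℕ) :
    Nat.card (GL (Fin n) F) = Fintype.card F ^ (∑ j : Fin n, (j : ℕ)) * redProd (Fintype.card F) n n := by
  rw [Matrix.card_GL_field, prod_pow_sub le_rfl]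

/-- `∏_{i ≤ n} (q^i - 1)`. -/
theorem redProd_self (q n : ℕ) : redProd q n n = ∏ i ∈ Finset.range n, (q ^ (i + 1) - 1) := by
  rw [redProd, Fin.prod_univ_eq_prod_range (fun j => q ^ (n - j) - 1) n,
    ← Finset.prod_range_reflect (fun j => q ^ (n - j) - 1) n]
  refine Finset.prod_congr rfl fun i hi => ?_
  rw [Finset.mem_range] at hi
  congr 2
  omega

/-- Even and odd exponents. -/
theorem prod_split (g : ℕ → ℕ) : ∀ m, ∏ i ∈ Finset.range (2 * m + 1), g (i + 1) =
    (∏ i ∈ Finset.range m, g (2 * (i + 1))) * ∏ i ∈ Finset.range (m + 1), g (2 * i + 1)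
  | 0 => by simp
  | m + 1 => by
    rw [show 2 * (m + 1) + 1 = 2 * m + 1 + 1 + 1 by ring, Finset.prod_range_succ, Finset.prod_range_succ,
      prod_split g m, Finset.prod_range_succ (fun i => g (2 * (i + 1))) m,
      Finset.prod_range_succ (fun i => g (2 * i + 1)) (m + 1)]
    ring_nf

/-- `r` times the order of the isometry group divides twice that of the general linear group. -/
theorem mul_card_orth_dvd [Fintype F] (hQ : ClassicalForms.Nondeg Q) {r : ℕ}
    (hΩ : r ∣ (Cfsg.Geo.quadSimilarityGroup (⇑Q)).relIndex (Cfsg.Geo.specialLinear (Fin n) F)) :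
    r * Nat.card (ClassicalForms.orth Q) ∣ 2 * Nat.card (GL (Fin n) F) := by
  classical
  set SL := Cfsg.Geo.specialLinear (Fin n) F with hSL
  set G := Cfsg.Geo.quadSimilarityGroup (⇑Q) with hG
  set K := Cfsg.isometryGroup F (⇑Q) with hK
  have hmem : ∀ g : GL (Fin n) F, g ∈ K → ∀ v, Q ((g : Matrix (Fin n) (Fin n) F) *ᵥ v) = 1 * Q v := fun g hg v => by
    rw [one_mul]; exact hg v v
  let D : ↥K →* Fˣ := Matrix.GeneralLinearGroup.det.comp K.subtype
  have hrange : Nat.card D.range ∣ 2 := by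
    have hsub : ∀ u ∈ D.range, u = 1 ∨ u = -1 := by
      rintro _ ⟨g, rfl⟩
      have h := (isSesq_polar hQ).det_mul_det (polar_similar (hmem g.1 g.2))
      rw [RingHom.id_apply, one_pow, mul_self_eq_one_iff] at h
      rcases h with h | h
      · exact Or.inl (Units.ext h)
      · exact Or.inr (Units.ext h)
    have hle : Nat.card D.range ≤ 2 := by
      have hinj : (D.range : Set Fˣ) ⊆ ({1, -1} : Set Fˣ) := fun u hu => by simpa using hsub u hu
      calc Nat.card D.range = Set.ncard (D.range : Set Fˣ) := by rw [← Nat.card_coe_set_eq]; rfl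
        _ ≤ Set.ncard ({1, -1} : Set Fˣ) := Set.ncard_le_ncard hinj (Set.toFinite _)
        _ ≤ 2 := (Set.ncard_insert_le _ _).trans (by simp)
    have hpos : 0 < Nat.card D.range := Nat.card_pos
    interval_cases Nat.card D.range <;> norm_num
  have hker : Nat.card D.ker ∣ Nat.card ↥(G ⊓ SL) := by
    let ψ : D.ker →* ↥(G ⊓ SL) :=
      { toFun := fun g => ⟨(g.1 : GL (Fin n) F), ⟨1, fun v => hmem _ g.1.2 v⟩, g.2⟩
        map_one' := rfl
        map_mul' := fun _ _ => rfl }
    exact Subgroup.card_dvd_of_injective ψ fun a b hab =>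
      Subtype.ext (Subtype.ext (congrArg (fun t : ↥(G ⊓ SL) => (t : GL (Fin n) F)) hab))
  have hO : Nat.card (ClassicalForms.orth Q) ∣ Nat.card ↥(G ⊓ SL) * 2 := by
    rw [← Nat.card_congr (ClassicalForms.isoMat Q (f := ⇑Q) fun _ => rfl).toEquiv,
      Subgroup.card_eq_card_quotient_mul_card_subgroup D.ker,
      Nat.card_congr (QuotientGroup.quotientKerEquivRange D).toEquiv, mul_comm]
    exact mul_dvd_mul hker hrange
  have hidx : G.relIndex SL * Nat.card ↥(G ⊓ SL) = Nat.card SL := by
    rw [← Subgroup.inf_relIndex_right, ← Subgroup.index_mul_card ((G ⊓ SL).subgroupOf SL),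
      Nat.card_congr (Subgroup.subgroupOfEquivOfLe inf_le_right).toEquiv]
    rfl
  calc r * Nat.card (ClassicalForms.orth Q) ∣ G.relIndex SL * (Nat.card ↥(G ⊓ SL) * 2) := mul_dvd_mul hΩ hO
    _ = 2 * Nat.card SL := by rw [← mul_assoc, hidx, mul_comm]
    _ ∣ 2 * Nat.card (GL (Fin n) F) := mul_dvd_mul_left 2 (Subgroup.card_subgroup_dvd_card SL)

/-- What the index condition gives when `r` divides no `q ^ i - 1` with `i` odd. -/
theorem even_case [Fintype F] (h2 : (2 : F) ≠ 0) (hn : 0 < n) (hQ : ClassicalForms.Nondeg Q) {r : ℕ}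
    [Fact r.Prime] (hr2 : r ≠ 2) (hrq : ¬ r ∣ Fintype.card F)
    (hodd : ∀ i, Odd i → i ≤ n → ¬ r ∣ Fintype.card F ^ i - 1)
    (hΩ : r ∣ (Cfsg.Geo.quadSimilarityGroup (⇑Q)).relIndex (Cfsg.Geo.specialLinear (Fin n) F)) :
    r ∣ Fintype.card F ^ n - 1 ∧ ((Nat.card {v : Fin n → F // Q v = 0} : ℤ) : ZMod r) ≠ 1 := by
  classical
  set q := Fintype.card F with hq
  have hr : r.Prime := Fact.out
  have hF : Nat.card F = q := Nat.card_eq_fintype_card
  have hq1 : 1 < q := Fintype.one_lt_card
  have hqr : (q : ZMod r) ≠ 0 := by rwa [Ne, ZMod.natCast_eq_zero_iff]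
  have htwo : ((2 : ℕ) : ZMod r) ≠ 0 := fun h => hr2 ((Nat.prime_dvd_prime_iff_eq hr Nat.prime_two).1
    ((ZMod.natCast_eq_zero_iff 2 r).1 h))
  have hcast : ∀ i, ((q ^ i - 1 : ℕ) : ℤ) = (q : ℤ) ^ i - 1 := fun i => by
    rw [Nat.cast_sub (Nat.one_le_pow _ _ (by omega))]; push_cast; rfl
  have hne : ∀ i, i ≠ 0 → (q : ℤ) ^ i - 1 ≠ 0 := fun i hi =>
    sub_ne_zero.2 (one_lt_pow₀ (by exact_mod_cast hq1) hi).ne'
  have hoddne : ∀ M, 2 * M ≤ n + 1 →
      (((∏ i ∈ Finset.range M, ((q : ℤ) ^ (2 * i + 1) - 1)) : ℤ) : ZMod r) ≠ 0 := by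
    intro M hM
    rw [Int.cast_prod, Finset.prod_ne_zero_iff]
    intro i hi h
    rw [Finset.mem_range] at hi
    refine hodd (2 * i + 1) ⟨i, rfl⟩ (by omega) ?_
    rw [← ZMod.natCast_eq_zero_iff, ← Int.cast_natCast, hcast]
    exact h
  -- the product formula
  have hsplit : ∀ M, ((∏ i ∈ Finset.range (2 * M + 1), (q ^ (i + 1) - 1) : ℕ) : ℤ) =
      (∏ i ∈ Finset.range M, ((q : ℤ) ^ (2 * (i + 1)) - 1)) *
        ∏ i ∈ Finset.range (M + 1), ((q : ℤ) ^ (2 * i + 1) - 1) := by
    intro M
    rw [prod_split (fun i => q ^ i - 1) M, Nat.cast_mul, Nat.cast_prod, Nat.cast_prod]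
    simp only [hcast]
  have hdiv : ((r * Nat.card (ClassicalForms.orth Q) : ℕ) : ℤ) ∣ ((2 * Nat.card (GL (Fin n) F) : ℕ) : ℤ) :=
    Int.natCast_dvd_natCast.2 (mul_card_orth_dvd hQ hΩ)
  rw [card_GL_fin, redProd_self, ← hq] at hdiv
  simp only [Nat.cast_mul, Nat.cast_pow, Nat.cast_ofNat] at hdiv
  generalize (∑ j : Fin n, (j : ℕ)) = a at hdiv
  rcases Nat.even_or_odd' n with ⟨m, hm | hm⟩
  · obtain ⟨k, rfl⟩ : ∃ k, m = k + 1 := ⟨m - 1, by omega⟩
    have hprod : ((∏ i ∈ Finset.range n, (q ^ (i + 1) - 1) : ℕ) : ℤ) =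
        (((q : ℤ) ^ (k + 1) - 1) * ((q : ℤ) ^ (k + 1) + 1)) * (∏ i ∈ Finset.range k, ((q : ℤ) ^ (2 * (i + 1)) - 1)) *
          ∏ i ∈ Finset.range (k + 1), ((q : ℤ) ^ (2 * i + 1) - 1) := by
      rw [hm, show 2 * (k + 1) = 2 * k + 1 + 1 by ring, Finset.prod_range_succ, Nat.cast_mul, hsplit, hcast]
      ring
    rw [hprod] at hdiv
    have hP : ∏ i ∈ Finset.range k, ((q : ℤ) ^ (2 * (i + 1)) - 1) ≠ 0 :=
      Finset.prod_ne_zero_iff.2 fun i _ => hne _ (by omega)
    have hOdd := hoddne (k + 1) (by omega)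
    have hfin : ∀ (e : ℤ) (b : ℕ), (e = 1 ∨ e = -1) →
        (Nat.card (ClassicalForms.orth Q) : ℤ) = 2 * (q : ℤ) ^ b * ((q : ℤ) ^ (k + 1) - e) *
          (∏ i ∈ Finset.range k, ((q : ℤ) ^ (2 * (i + 1)) - 1)) → (q : ZMod r) ^ (k + 1) = -(e : ZMod r) := by
      intro e b he hO
      obtain ⟨J, hJ⟩ := hdiv
      rw [hO] at hJ
      have hne' : (2 * ((q : ℤ) ^ (k + 1) - e)) * (∏ i ∈ Finset.range k, ((q : ℤ) ^ (2 * (i + 1)) - 1)) ≠ 0 := by
        refine mul_ne_zero (mul_ne_zero two_ne_zero ?_) hP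
        have : (1 : ℤ) < (q : ℤ) ^ (k + 1) := one_lt_pow₀ (by exact_mod_cast hq1) (by omega)
        rcases he with rfl | rfl <;> omega
      have hkey : (r : ℤ) * (q : ℤ) ^ b * J = (q : ℤ) ^ a * ((q : ℤ) ^ (k + 1) + e) *
          ∏ i ∈ Finset.range (k + 1), ((q : ℤ) ^ (2 * i + 1) - 1) := by
        refine mul_left_cancel₀ hne' ?_
        have he2 : e * e = 1 := by rcases he with rfl | rfl <;> norm_num
        linear_combination -hJ + (2 * (q : ℤ) ^ a * (∏ i ∈ Finset.range k, ((q : ℤ) ^ (2 * (i + 1)) - 1)) *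
          (∏ i ∈ Finset.range (k + 1), ((q : ℤ) ^ (2 * i + 1) - 1))) * he2
      have hmod := congrArg (fun z : ℤ => (z : ZMod r)) hkey
      simp only [Int.cast_mul, Int.cast_natCast, ZMod.natCast_self, zero_mul] at hmod
      rcases mul_eq_zero.1 hmod.symm with h | h
      · rcases mul_eq_zero.1 h with h | h
        · push_cast at h; exact absurd h (pow_ne_zero _ hqr)
        · push_cast at h; exact eq_neg_of_add_eq_zero_left h
      · exact absurd h hOdd
    have hqn : ∀ e : ℤ, (e = 1 ∨ e = -1) → (q : ZMod r) ^ (k + 1) = -(e : ZMod r) → r ∣ q ^ n - 1 := by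
      intro e he h
      rw [← ZMod.natCast_eq_zero_iff, ← Int.cast_natCast, hcast, hm]
      push_cast
      rw [mul_comm 2, pow_mul, h]
      rcases he with rfl | rfl <;> push_cast <;> ring
    have hne1 : (q : ZMod r) ≠ 1 := by
      intro h
      refine hodd 1 odd_one (by omega) ?_
      rw [pow_one, ← ZMod.natCast_eq_zero_iff, Nat.cast_sub (by omega), h, Nat.cast_one, sub_self]
    rcases Classes.exists_equiv_even (m := k + 1) (by omega) (by rw [Module.finrank_fin_fun, hm]) Q
      (nondegenerate_of hQ) with ⟨E, hE⟩ | ⟨E, ζ, hζ, hE⟩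
    · have hO := card_orth_congr (Q := Q) (Q' := ClassicalForms.qPlus (k + 1) F) E one_ne_zero
        (fun v => by rw [one_mul, ClassicalForms.qPlus_apply, hE])
      have hcard := ClassicalForms.card_orth_qPlus (F := F) (k + 1) (by omega)
      rw [← hO, hF, Nat.add_sub_cancel] at hcard
      have hqe := hfin 1 _ (Or.inl rfl) hcard
      refine ⟨hqn 1 (Or.inl rfl) hqe, fun hone => ?_⟩
      have hZ := ClassicalForms.card_zeros_qPlus (F := F) (k + 1)
      rw [← ClassicalForms.card_zeros_congr (Q := Q) E (fun v => by rw [ClassicalForms.qPlus_apply, hE]), hF] at hZ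
      have hmod := congrArg (fun z : ℤ => (z : ZMod r)) hZ
      push_cast at hmod hone hqe
      rw [hone, pow_succ (q : ZMod r) (k + 1), hqe] at hmod
      refine hne1 (mul_left_cancel₀ (a := ((2 : ℕ) : ZMod r)) htwo ?_)
      push_cast
      linear_combination hmod
    · have hab : ClassicalForms.Aniso (1 : F) ζ :=
        fun z₁ z₂ h => Classes.anisotropic_of_noroot hζ z₁ z₂ (by simpa using h)
      have hO := card_orth_congr (Q := Q) (Q' := ClassicalForms.qMinus k F 1 ζ) E one_ne_zero
        (fun v => by rw [one_mul, ClassicalForms.qMinus_apply]; exact hE v)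
      have hcard := ClassicalForms.card_orth_qMinus hab k
      rw [← hO, hF] at hcard
      have hqe := hfin (-1) _ (Or.inr rfl) (by rw [hcard, sub_neg_eq_add])
      refine ⟨hqn (-1) (Or.inr rfl) hqe, fun hone => ?_⟩
      have hZ := ClassicalForms.card_zeros_qMinus hab k
      rw [← ClassicalForms.card_zeros_congr (Q := Q) (Q' := ClassicalForms.qMinus k F 1 ζ) E
        (fun v => by rw [ClassicalForms.qMinus_apply]; exact (hE v).symm), hF] at hZ
      have hmod := congrArg (fun z : ℤ => (z : ZMod r)) hZ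
      push_cast at hmod hone hqe
      have hk : (q : ZMod r) ^ k * (q : ZMod r) = 1 := by rw [← pow_succ, hqe, neg_neg]
      rw [hone] at hmod
      refine hne1 (mul_left_cancel₀ (a := ((2 : ℕ) : ZMod r)) htwo ?_)
      push_cast
      linear_combination hmod +
        ((1 : ZMod r) - (q : ZMod r) + (q : ZMod r) ^ k * (q : ZMod r) + 1) * hk
  · exfalso
    obtain ⟨E, c, hc, hE⟩ := exists_similar_odd hm hQ
    have hO := card_orth_congr (Q := Q) (Q' := ClassicalForms.qOdd m F) E hc hE
    have hcard := ClassicalForms.card_orth_qOdd (F := F) h2 m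
    rw [← hO, hF] at hcard
    have hprod : ((∏ i ∈ Finset.range n, (q ^ (i + 1) - 1) : ℕ) : ℤ) =
        (∏ i ∈ Finset.range m, ((q : ℤ) ^ (2 * (i + 1)) - 1)) *
          ∏ i ∈ Finset.range (m + 1), ((q : ℤ) ^ (2 * i + 1) - 1) := by
      rw [hm, hsplit]
    rw [hprod, hcard] at hdiv
    obtain ⟨J, hJ⟩ := hdiv
    have hP : 2 * ∏ i ∈ Finset.range m, ((q : ℤ) ^ (2 * (i + 1)) - 1) ≠ 0 :=
      mul_ne_zero two_ne_zero (Finset.prod_ne_zero_iff.2 fun i _ => hne _ (by omega))
    have hkey : (r : ℤ) * (q : ℤ) ^ (m ^ 2) * J =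
        (q : ℤ) ^ a * ∏ i ∈ Finset.range (m + 1), ((q : ℤ) ^ (2 * i + 1) - 1) := by
      refine mul_left_cancel₀ hP ?_
      linear_combination -hJ
    have hmod := congrArg (fun z : ℤ => (z : ZMod r)) hkey
    simp only [Int.cast_mul, Int.cast_natCast, ZMod.natCast_self, zero_mul] at hmod
    rcases mul_eq_zero.1 hmod.symm with h | h
    · push_cast at h; exact pow_ne_zero _ hqr h
    · exact hoddne (m + 1) (by omega) h

/-- A conjugate with an eigenbasis on which the form pairs the eigenvalues is a similitude. -/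
theorem similar_of_eigen (h2 : (2 : F) ≠ 0) (b : Module.Basis (Fin n) F (Fin n → F)) (d : Fin n → F) {c : F}
    {X : Matrix (Fin n) (Fin n) F} (hd : ∀ i, X *ᵥ b i = d i • b i)
    (hb : ∀ i j, polar (⇑Q) (b i) (b j) = 0 ∨ d i * d j = c) (v : Fin n → F) : Q (X *ᵥ v) = c * Q v := by
  have h : (polarBilin Q).compl₁₂ (Matrix.toLin' X) (Matrix.toLin' X) = c • polarBilin Q := by
    refine b.ext fun i => b.ext fun j => ?_
    simp only [LinearMap.compl₁₂_apply, Matrix.toLin'_apply, hd, LinearMap.smul_apply, polarBilin_apply_apply,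
      polar_smul_left, polar_smul_right, smul_eq_mul]
    rcases hb i j with h | h
    · simp [h]
    · linear_combination (polar (⇑Q) (b i) (b j)) * h
  have hv := LinearMap.congr_fun₂ h v v
  simp only [LinearMap.compl₁₂_apply, Matrix.toLin'_apply, LinearMap.smul_apply, polarBilin_apply_apply,
    polar_self, nsmul_eq_mul, smul_eq_mul, Nat.cast_ofNat] at hv
  exact mul_left_cancel₀ h2 (by linear_combination hv)

theorem exists_orthogonal_basis (h2 : (2 : F) ≠ 0) (Q : QuadraticForm F (Fin n → F)) :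
    ∃ e : Module.Basis (Fin n) F (Fin n → F), ∀ i j, i ≠ j → polar (⇑Q) (e i) (e j) = 0 := by
  haveI : Invertible (2 : F) := invertibleOfNonzero h2
  obtain ⟨v, hv⟩ := LinearMap.BilinForm.exists_orthogonal_basis (B := polarBilin Q)
    ⟨fun x y => polar_comm (⇑Q) x y⟩
  let σ := finCongr (Module.finrank_fin_fun F (n := n))
  refine ⟨v.reindex σ, fun i j hij => ?_⟩
  rw [Module.Basis.reindex_apply, Module.Basis.reindex_apply]
  exact hv (fun h => hij (σ.symm.injective h))

/-- Every element of order two fixes a point. -/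
theorem exists_fixed_two [Fintype F] [NeZero n] (h2 : (2 : F) ≠ 0) (hQ : ClassicalForms.Nondeg Q)
    (x : GL (Fin n) F) {z : F} (hz : (x : Matrix (Fin n) (Fin n) F) * x = z • 1) :
    ∃ g ∈ Cfsg.Geo.specialLinear (Fin n) F, g⁻¹ * x * g ∈ Cfsg.Geo.quadSimilarityGroup (⇑Q) := by
  classical
  have hz0 : z ≠ 0 := Omega.ne_zero_of_square hz
  obtain ⟨e, he⟩ := exists_orthogonal_basis h2 Q
  by_cases hs : IsSquare z
  · obtain ⟨s, rfl⟩ := hs
    obtain ⟨b, d, hd, hb, -⟩ := Omega.exists_eigen_square h2 _ (left_ne_zero_of_mul hz0) hz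
    obtain ⟨g, hg, hge⟩ := Omega.exists_sl_conj_onto x b e d hb
    refine ⟨g, hg, Units.mk0 (s * s) hz0, similar_of_eigen h2 e d hge fun i j => ?_⟩
    by_cases hij : i = j
    · right
      subst hij
      rcases hd i with h | h <;> rw [h] <;> simp
    · exact Or.inl (he i j hij)
  · obtain ⟨α, β, _, _, _, _, w, c, hw0, hw1, hwl⟩ := Omega.exists_plane_form _ z hz0 hz
    haveI : IsEmpty β := ⟨fun l => hs ⟨c l, (hwl l).2.symm⟩⟩
    have hcard : Fintype.card ((α × Fin 2) ⊕ β) = n := by
      rw [← Module.finrank_eq_card_basis w, Module.finrank_fin_fun]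
    let e' : Module.Basis ((α × Fin 2) ⊕ β) F (Fin n → F) :=
      e.reindex (Fintype.equivOfCardEq (by rw [hcard, Fintype.card_fin]))
    have he' : ∀ i j, i ≠ j → polar (⇑Q) (e' i) (e' j) = 0 := fun i j hij => by
      simp only [e', Module.Basis.reindex_apply]
      exact he _ _ fun h => hij (Equiv.injective _ h)
    have hQe : ∀ i, Q (e' i) ≠ 0 := fun i h0 => e'.ne_zero i (hQ _ fun y => by
      conv_lhs => rw [← e'.sum_repr y]
      rw [← polarBilin_apply_apply, map_sum]
      refine Finset.sum_eq_zero fun j _ => ?_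
      rw [map_smul, polarBilin_apply_apply]
      by_cases hij : i = j
      · subst hij; rw [polar_self, h0]; simp
      · rw [he' i j hij, smul_zero])
    have hex : ∀ k : α, ∃ st : F × F, 1 * st.1 ^ 2 + Q (e' (.inl (k, 0))) * Q (e' (.inl (k, 1))) * st.2 ^ 2 = z :=
      fun k => by
        obtain ⟨s, t, h⟩ := Classes.exists_sq_add_sq 1 _ z one_ne_zero
          (mul_ne_zero (hQe (.inl (k, 0))) (hQe (.inl (k, 1))))
        exact ⟨(s, t), h⟩
    choose st hst using hex
    let img : (α × Fin 2) ⊕ β → (Fin n → F) := Sum.elim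
      (fun p => if p.2 = 0 then (st p.1).1 • e' (.inl (p.1, 0)) + ((st p.1).2 * Q (e' (.inl (p.1, 0)))) • e' (.inl (p.1, 1))
        else ((st p.1).2 * Q (e' (.inl (p.1, 1)))) • e' (.inl (p.1, 0)) - (st p.1).1 • e' (.inl (p.1, 1)))
      isEmptyElim
    let L : (Fin n → F) →ₗ[F] (Fin n → F) := e'.constr F img
    have hL0 : ∀ k, L (e' (.inl (k, 0))) =
        (st k).1 • e' (.inl (k, 0)) + ((st k).2 * Q (e' (.inl (k, 0)))) • e' (.inl (k, 1)) := fun k => by
      simp [L, img]
    have hL1 : ∀ k, L (e' (.inl (k, 1))) =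
        ((st k).2 * Q (e' (.inl (k, 1)))) • e' (.inl (k, 0)) - (st k).1 • e' (.inl (k, 1)) := fun k => by
      simp [L, img]
    have hLL : L.comp L = z • LinearMap.id := by
      refine e'.ext fun i => ?_
      rcases i with ⟨k, j⟩ | l
      · fin_cases j
        · show L (L (e' (.inl (k, 0)))) = z • e' (.inl (k, 0))
          rw [hL0, map_add, map_smul, map_smul, hL0, hL1, ← hst k]
          module
        · show L (L (e' (.inl (k, 1)))) = z • e' (.inl (k, 1))
          rw [hL1, map_sub, map_smul, map_smul, hL0, hL1, ← hst k]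
          module
      · exact isEmptyElim l
    have hsim : (polarBilin Q).compl₁₂ L L = z • polarBilin Q := by
      refine e'.ext fun i => e'.ext fun j => ?_
      rcases i with ⟨k, a⟩ | l
      swap
      · exact isEmptyElim l
      rcases j with ⟨k', b⟩ | l
      swap
      · exact isEmptyElim l
      have hstk := hst k
      have h01 := he' (.inl (k, 0)) (.inl (k, 1)) (by simp)
      have h10 := he' (.inl (k, 1)) (.inl (k, 0)) (by simp)
      have h00 : polar (⇑Q) (e' (.inl (k, 0))) (e' (.inl (k, 0))) = 2 * Q (e' (.inl (k, 0))) := by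
        rw [polar_self, nsmul_eq_mul, Nat.cast_ofNat]
      have h11 : polar (⇑Q) (e' (.inl (k, 1))) (e' (.inl (k, 1))) = 2 * Q (e' (.inl (k, 1))) := by
        rw [polar_self, nsmul_eq_mul, Nat.cast_ofNat]
      by_cases hk : k = k'
      · subst hk
        fin_cases a <;> fin_cases b <;>
          simp only [LinearMap.compl₁₂_apply, LinearMap.smul_apply, polarBilin_apply_apply, hL0, hL1,
            polar_add_left, polar_add_right, polar_sub_left, polar_sub_right, polar_smul_left, polar_smul_right,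
            Fin.zero_eta, Fin.mk_one, h00, h11, h01, h10, smul_eq_mul]
        · linear_combination (2 * Q (e' (.inl (k, 0)))) * hstk
        · ring
        · ring
        · linear_combination (2 * Q (e' (.inl (k, 1)))) * hstk
      · have h : ∀ a b : Fin 2, polar (⇑Q) (e' (.inl (k, a))) (e' (.inl (k', b))) = 0 :=
          fun a b => he' _ _ (by simp [hk])
        fin_cases a <;> fin_cases b <;>
          simp [hL0, hL1, polar_add_left, polar_add_right, polar_sub_left, polar_sub_right,
            polar_smul_left, polar_smul_right, h]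
    let Y : Matrix (Fin n) (Fin n) F := LinearMap.toMatrix' L
    have hY : ∀ v, Y *ᵥ v = L v := fun v => by rw [← Matrix.toLin'_apply, Matrix.toLin'_toMatrix']
    have hYY : Y * Y = z • 1 := by
      rw [← LinearMap.toMatrix'_comp, hLL, map_smul, LinearMap.toMatrix'_id]
    have hYQ : ∀ v, Q (Y *ᵥ v) = z * Q v := fun v => by
      have := LinearMap.congr_fun₂ hsim v v
      simp only [LinearMap.compl₁₂_apply, LinearMap.smul_apply, polarBilin_apply_apply, polar_self, nsmul_eq_mul,
        smul_eq_mul, Nat.cast_ofNat] at this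
      rw [hY]
      exact mul_left_cancel₀ h2 (by linear_combination this)
    obtain ⟨α', β', _, _, _, _, w', c', hw0', hw1', hwl'⟩ := Omega.exists_plane_form Y z hz0 hYY
    haveI : IsEmpty β' := ⟨fun l => hs ⟨c' l, (hwl' l).2.symm⟩⟩
    have hαα : Fintype.card α' = Fintype.card α := by
      have h1 := Module.finrank_eq_card_basis w'
      rw [Module.finrank_eq_card_basis w, Fintype.card_sum, Fintype.card_sum, Fintype.card_prod, Fintype.card_prod,
        Fintype.card_eq_zero (α := β), Fintype.card_eq_zero (α := β'), Fintype.card_fin] at h1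
      omega
    let φ : α' ≃ α := Fintype.equivOfCardEq hαα
    let ε : (α' × Fin 2) ⊕ β' ≃ (α × Fin 2) ⊕ β :=
      Equiv.sumCongr (φ.prodCongr (Equiv.refl _)) (Equiv.equivOfIsEmpty β' β)
    obtain ⟨g, hg⟩ := Omega.exists_gl_of_bases (w.reindex ε.symm) w'
    have hconj : ((g⁻¹ * x * g : GL (Fin n) F) : Matrix (Fin n) (Fin n) F) = Y := by
      refine Matrix.toLin'.injective (w'.ext fun i => ?_)
      simp only [Matrix.toLin'_apply]
      rcases i with ⟨k, j⟩ | l
      · fin_cases j
        · simp only [Fin.zero_eta, Fin.isValue, hw0' k]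
          refine Omega.conj_mulVec x g (hg _) ?_
          rw [hg]; simp [ε, hw0]
        · simp only [Fin.mk_one, Fin.isValue, hw1' k]
          refine Omega.conj_mulVec x g (hg _) ?_
          rw [Matrix.mulVec_smul, hg]; simp [ε, hw1]
      · exact isEmptyElim l
    obtain ⟨g', hg', hgg⟩ := Omega.exists_sl_conj_of_square (g := g) hz0 hz
    refine ⟨g', hg', ?_⟩
    rw [hgg]
    exact ⟨Units.mk0 z hz0, fun v => by rw [hconj]; exact hYQ v⟩

/-- A form pairing a given involutive permutation of a basis. -/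
theorem exists_paired_basis [Finite F] (h2 : (2 : F) ≠ 0) {m : ℕ} (hn : n = 2 * m + 1)
    (hQ : ClassicalForms.Nondeg Q) (π : Equiv.Perm (Fin n)) (hπ : ∀ i, π (π i) = i) :
    ∃ b : Module.Basis (Fin n) F (Fin n → F), ∀ i j, polar (⇑Q) (b i) (b j) = 0 ∨ j = π i := by
  classical
  let B : LinearMap.BilinMap F (Fin n → F) F := LinearMap.mk₂ F (fun u v => ∑ i, u i * v (π i))
    (fun u u' v => by simp [add_mul, Finset.sum_add_distrib])
    (fun a u v => by simp [Finset.mul_sum, mul_assoc])
    (fun u v v' => by simp [mul_add, Finset.sum_add_distrib])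
    (fun a u v => by simp [Finset.mul_sum]; exact Finset.sum_congr rfl fun i _ => by ring)
  let Q' : QuadraticForm F (Fin n → F) := B.toQuadraticMap
  have hpol : ∀ u v, polar (⇑Q') u v = 2 * ∑ i, u i * v (π i) := by
    intro u v
    have hflip : ∑ i, v i * u (π i) = ∑ i, u i * v (π i) := by
      rw [← Equiv.sum_comp π]
      exact Finset.sum_congr rfl fun i _ => by rw [hπ, mul_comm]
    rw [LinearMap.BilinMap.polar_toQuadraticMap]
    simp only [B, LinearMap.mk₂_apply]
    rw [hflip, two_mul]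
  have hnd : ClassicalForms.Nondeg Q' := fun v hv => funext fun i => by
    have := hv (Pi.single (π i) 1)
    rw [hpol, Finset.sum_eq_single i] at this
    · simpa [h2] using this
    · intro j _ hj; simp [π.injective.ne hj]
    · simp
  obtain ⟨E, c, hc, hE⟩ := exists_similar_odd hn hQ
  obtain ⟨E', c', hc', hE'⟩ := exists_similar_odd hn hnd
  let L := E'.trans E.symm
  have hL : ∀ v, Q (L v) = c / c' * Q' v := fun v => by
    rw [hE, hE' v]
    simp only [L, LinearEquiv.trans_apply, LinearEquiv.apply_symm_apply]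
    field_simp
  refine ⟨(Pi.basisFun F (Fin n)).map L, fun i j => ?_⟩
  by_cases hij : j = π i
  · exact Or.inr hij
  · left
    simp only [Module.Basis.map_apply, Pi.basisFun_apply]
    rw [show polar (⇑Q) (L (Pi.single i 1)) (L (Pi.single j 1)) = c / c' * polar (⇑Q') (Pi.single i 1) (Pi.single j 1) by
      simp only [polar, ← map_add, hL]; ring, hpol, Finset.sum_eq_single i]
    · simp [Ne.symm hij]
    · intro k _ hk; simp [hk]
    · simp

end CfsgLib.Derangements.FormPrime
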