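import Cfsg.Agent.Lib.Derangements.FormPrime.Basic

/-!
Elements of order three and five in dimensions three and five: the exponent multisets with sum zero are
symmetrical, so their eigenvalues pair off to a multiplier.
-/

set_option autoImplicit false

open Polynomial
open scoped Matrix

namespace CfsgLib.Derangements.FormPrime

/-- The fifteen involutions of five points with one fixed point. -/
def pairList : List (Fin 5 → Fin 5) :=
  [![0, 2, 1, 4, 3], ![0, 3, 4, 1, 2], ![0, 4, 3, 2, 1],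
   ![2, 1, 0, 4, 3], ![3, 1, 4, 0, 2], ![4, 1, 3, 2, 0],
   ![1, 0, 2, 4, 3], ![3, 4, 2, 0, 1], ![4, 3, 2, 1, 0],
   ![1, 0, 4, 3, 2], ![2, 4, 0, 3, 1], ![4, 2, 1, 3, 0],
   ![1, 0, 3, 2, 4], ![2, 3, 0, 1, 4], ![3, 2, 1, 0, 4]]

theorem symmetric_five : ∀ a b c d : ZMod 5, ∃ π ∈ pairList, (∀ i, π (π i) = i) ∧
    ∀ i, (![a, b, c, d, -(a + b + c + d)] : Fin 5 → ZMod 5) i + ![a, b, c, d, -(a + b + c + d)] (π i) =
      ![a, b, c, d, -(a + b + c + d)] 0 + ![a, b, c, d, -(a + b + c + d)] (π 0) := by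
  decide +kernel

theorem symmetric_three : ∀ a b : ZMod 3, ∃ π ∈ [![(0 : Fin 3), 2, 1], ![2, 1, 0], ![1, 0, 2]], (∀ i, π (π i) = i) ∧
    ∀ i, (![a, b, -(a + b)] : Fin 3 → ZMod 3) i + ![a, b, -(a + b)] (π i) =
      ![a, b, -(a + b)] 0 + ![a, b, -(a + b)] (π 0) := by
  decide +kernel

theorem exists_involution_five (k : Fin 5 → ZMod 5) (hk : ∑ i, k i = 0) :
    ∃ π : Equiv.Perm (Fin 5), (∀ i, π (π i) = i) ∧ ∀ i, k i + k (π i) = k 0 + k (π 0) := by
  obtain ⟨π, -, hπ, h⟩ := symmetric_five (k 0) (k 1) (k 2) (k 3)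
  have hk' : ![k 0, k 1, k 2, k 3, -(k 0 + k 1 + k 2 + k 3)] = k := funext fun i => by
    rw [Fin.sum_univ_five] at hk
    fin_cases i <;> simp
    linear_combination -hk
  rw [hk'] at h
  exact ⟨⟨π, π, hπ, hπ⟩, hπ, h⟩

theorem exists_involution_three (k : Fin 3 → ZMod 3) (hk : ∑ i, k i = 0) :
    ∃ π : Equiv.Perm (Fin 3), (∀ i, π (π i) = i) ∧ ∀ i, k i + k (π i) = k 0 + k (π 0) := by
  obtain ⟨π, -, hπ, h⟩ := symmetric_three (k 0) (k 1)
  have hk' : ![k 0, k 1, -(k 0 + k 1)] = k := funext fun i => by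
    rw [Fin.sum_univ_three] at hk
    fin_cases i <;> simp
    linear_combination -hk
  rw [hk'] at h
  exact ⟨⟨π, π, hπ, hπ⟩, hπ, h⟩

variable {F : Type*} [Field F] [Fintype F]

/-- In dimension `r ∈ {3, 5}`, with `r` exactly dividing `q - 1`, an element of order `r` has an eigenbasis
whose eigenvalues pair off under an involution to one multiplier, the eigenvalues being `r`-th roots of unity. -/
theorem exists_eigen_small {n r : ℕ} [Fact r.Prime] (hr35 : r = 3 ∨ r = 5) (hn : n = r)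
    (hv : padicValNat r (Fintype.card F - 1) = 1) (x : GL (Fin n) F) (hx : x ∈ Cfsg.Geo.specialLinear (Fin n) F)
    {z : F} (hz : ((x ^ r : GL (Fin n) F) : Matrix (Fin n) (Fin n) F) = z • 1) :
    ∃ (b : Module.Basis (Fin n) F (Fin n → F)) (d : Fin n → F) (π : Equiv.Perm (Fin n)) (c : F),
      (∀ i, d i ^ r = 1) ∧ (∀ i, π (π i) = i) ∧ (∀ i, (x : Matrix (Fin n) (Fin n) F) *ᵥ b i = d i • b i) ∧
      (∀ i, d i * d (π i) = c) ∧ c ≠ 0 := by
  classical
  subst hn
  have hr : n.Prime := Fact.out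
  haveI : NeZero n := ⟨hr.ne_zero⟩
  have hdet : (x : Matrix (Fin n) (Fin n) F).det = 1 := Omega.mem_specialLinear.1 hx
  have hzr : z ^ n = 1 := by
    have h := congrArg Matrix.det hz
    rw [Units.val_pow_eq_pow_val, Matrix.det_pow, hdet, one_pow, Matrix.det_smul, Matrix.det_one, mul_one,
      Fintype.card_fin] at h
    exact h.symm
  have hq1 : n ∣ Fintype.card F - 1 := dvd_of_one_le_padicValNat (by omega)
  obtain ⟨ω, hω, hω1, hω0⟩ := Omega.exists_root_of_dvd (K := F) (r := n) hq1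
  have hprim : IsPrimitiveRoot ω n := IsPrimitiveRoot.iff_def ω n |>.2
    ⟨hω, fun l hl => by
      rw [← orderOf_eq_prime hω hω1]
      exact orderOf_dvd_of_pow_eq_one hl⟩
  have hA : aeval (x : Matrix (Fin n) (Fin n) F) (X ^ n - C z : F[X]) = 0 := by
    rw [map_sub, map_pow, aeval_X, aeval_C, ← Units.val_pow_eq_pow_val, hz, Algebra.algebraMap_eq_smul_one, sub_self]
  -- `z` is an `r`-th power, hence `1`
  have hz1 : z = 1 := by
    by_contra hz1
    have hnopow : ∀ w : F, w ^ n ≠ z := by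
      intro w hw
      have hw2 : w ^ (n * n) = 1 := by rw [pow_mul, hw, hzr]
      have hw0 : w ≠ 0 := by rintro rfl; rw [zero_pow (mul_ne_zero hr.ne_zero hr.ne_zero)] at hw2; exact zero_ne_one hw2
      have hord : orderOf w = n ^ 2 := by
        refine orderOf_eq_prime_pow (x := w) (n := 1) ?_ (by rw [pow_two]; exact hw2)
        rw [pow_one, hw]; exact hz1
      have hdvd : orderOf w ∣ Fintype.card F - 1 :=
        orderOf_dvd_of_pow_eq_one (FiniteField.pow_card_sub_one_eq_one w hw0)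
      rw [hord] at hdvd
      have hpos : Fintype.card F - 1 ≠ 0 := by
        have := Fintype.one_lt_card (α := F); omega
      have := (padicValNat_dvd_iff_le hpos).1 hdvd
      omega
    have hirr := X_pow_sub_C_irreducible_of_prime hr hnopow
    have hmon : (X ^ n - C z : F[X]).Monic := monic_X_pow_sub_C z hr.ne_zero
    have hmin := minpoly.eq_of_irreducible_of_monic hirr hA hmon
    have hdiv := Matrix.minpoly_dvd_charpoly (x : Matrix (Fin n) (Fin n) F)
    rw [← hmin] at hdiv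
    have heq := eq_of_monic_of_dvd_of_natDegree_le hmon (Matrix.charpoly_monic _) hdiv (by
      rw [Matrix.charpoly_natDegree_eq_dim, Fintype.card_fin, natDegree_X_pow_sub_C])
    have hdet' := Matrix.det_eq_sign_charpoly_coeff (x : Matrix (Fin n) (Fin n) F)
    rw [hdet, heq, Fintype.card_fin, coeff_sub, coeff_X_pow, if_neg (Ne.symm hr.ne_zero), coeff_C_zero,
      (hr.odd_of_ne_two (by omega)).neg_one_pow] at hdet'
    exact hz1 (by linear_combination -hdet')
  subst hz1
  have hS : (X ^ n - C (1 : F) : F[X]) = ∏ s ∈ (nthRootsFinset n (1 : F)), (X - C s) := by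
    rw [C_1]; exact X_pow_sub_one_eq_prod hr.pos hprim
  rw [hS] at hA
  obtain ⟨b, d, hdS, hb⟩ := Omega.exists_eigenbasis _ _ hA
  have hd1 : ∀ i, d i ^ n = 1 := fun i => (mem_nthRootsFinset hr.pos 1).1 (hdS i)
  have hk : ∀ i, ∃ e : ℕ, d i = ω ^ e := fun i => by
    obtain ⟨e, -, he⟩ := hprim.eq_pow_of_pow_eq_one (hd1 i)
    exact ⟨e, he.symm⟩
  choose e he using hk
  have hprod : ∏ i, d i = 1 := by
    have hM : LinearMap.toMatrix b b (Matrix.toLin' (x : Matrix (Fin n) (Fin n) F)) = Matrix.diagonal d := by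
      ext i j
      rw [LinearMap.toMatrix_apply, Matrix.toLin'_apply, hb]
      by_cases hij : i = j
      · subst hij; simp
      · simp [hij, Ne.symm hij, Matrix.diagonal_apply_ne _ hij]
    have := congrArg Matrix.det hM
    rw [LinearMap.det_toMatrix, LinearMap.det_toLin', hdet, Matrix.det_diagonal] at this
    exact this.symm
  let k : Fin n → ZMod n := fun i => (e i : ZMod n)
  have hsum : ∑ i, k i = 0 := by
    have h1 : ω ^ ∑ i, e i = 1 := by
      rw [← Finset.prod_pow_eq_pow_sum, ← hprod]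
      exact Finset.prod_congr rfl fun i _ => (he i).symm
    have := (hprim.pow_eq_one_iff_dvd _).1 h1
    rw [← ZMod.natCast_eq_zero_iff] at this
    push_cast at this
    exact this
  obtain ⟨π, hπ, hπk⟩ : ∃ π : Equiv.Perm (Fin n), (∀ i, π (π i) = i) ∧ ∀ i, k i + k (π i) = k 0 + k (π 0) := by
    rcases hr35 with rfl | rfl
    · exact exists_involution_three k hsum
    · exact exists_involution_five k hsum
  refine ⟨b, d, π, d 0 * d (π 0), hd1, hπ, hb, fun i => ?_, ?_⟩
  · rw [he, he, he, he, ← pow_add, ← pow_add, pow_eq_pow_mod _ hω,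
      pow_eq_pow_mod (e 0 + e (π 0)) hω]
    have := hπk i
    simp only [k, ← Nat.cast_add] at this
    rw [(ZMod.natCast_eq_natCast_iff' _ _ _).1 this]
  · rw [he, he]
    exact mul_ne_zero (pow_ne_zero _ hω0) (pow_ne_zero _ hω0)

end CfsgLib.Derangements.FormPrime
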