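import Cfsg.Agent.Lib.Derangements.FormPrime.Basic
import Cfsg.Agent.Lib.Omega.SquareCases
import Cfsg.Agent.Lib.ClassicalForms.Unitary.Card
import Cfsg.Agent.Lib.Forms.Hermitian
import Cfsg.Agent.Lib.ClassicalLinear.Card
import Cfsg.Agent.Lib.Derangements.SubspaceCounts

/-!
Elements of prime order of the special linear group over a field with `q₀²` elements against the similitude
group of a non-degenerate Hermitian form.
-/

set_option autoImplicit false

open CfsgLib.Derangements.SubFix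
open scoped Matrix

namespace CfsgLib.Derangements.FormPrime

variable {F : Type*} [Field F] {n : ℕ} {τ : F →+* F} {f : (Fin n → F) → (Fin n → F) → F}

/-- A non-degenerate form in the frozen sense is sesquilinear. -/
theorem isSesq_of_unitary {q₀ : ℕ} (hf : Cfsg.Geo.IsUnitaryFormPow q₀ f) (hτ : ∀ a, τ a = a ^ q₀)
    (hinv : ∀ a, τ (τ a) = a) : IsSesq τ f ∧ ∀ u v, f u v = τ (f v u) := by
  have hsym : ∀ u v, f u v = τ (f v u) := fun u v => by rw [hτ]; exact hf.herm u v
  refine ⟨⟨hinv, hf.add_left, hf.smul_left, fun u v v' => ?_, fun a u v => ?_, fun v hv => ?_⟩, hsym⟩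
  · rw [hsym, hf.add_left, map_add, ← hsym, ← hsym]
  · rw [hsym, hf.smul_left, map_mul, ← hsym]
  · by_contra h0
    obtain ⟨u, hu⟩ := (hf.nondegenerate v h0).1
    exact hu (hv u)

/-- A similitude of a Hermitian form has multiplier fixed by the involution. -/
theorem multiplier_fixed [NeZero n] (h : IsSesq τ f) (hsym : ∀ u v, f u v = τ (f v u))
    {X : Matrix (Fin n) (Fin n) F} {c : F} (hc : ∀ u v, f (X *ᵥ u) (X *ᵥ v) = c * f u v) : τ c = c := by
  obtain ⟨u, v, huv⟩ := h.exists_ne_zero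
  refine mul_right_cancel₀ huv ?_
  conv_rhs => rw [← hc, hsym, hc, map_mul, ← hsym]

/-- An orthonormal basis. -/
theorem exists_orthonormal [Finite F] (h : IsSesq τ f) (hne : τ ≠ RingHom.id F)
    (hsym : ∀ u v, f u v = τ (f v u)) :
    ∃ e : Module.Basis (Fin n) F (Fin n → F), ∀ i j, f (e i) (e j) = if i = j then 1 else 0 := by
  let B : (Fin n → F) →ₛₗ[τ] (Fin n → F) →ₗ[F] F :=
    LinearMap.mk₂'ₛₗ τ (RingHom.id F) (fun v w => f w v)
      (fun v v' w => h.add_right w v v') (fun a v w => h.smul_right a w v)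
      (fun v w w' => h.add_left w w' v) (fun a v w => h.smul_left a w v)
  have hB : ∀ v w, B v w = f w v := fun v w => rfl
  have hS : B.IsSymm := ⟨fun v w => by rw [hB, hB, ← hsym]⟩
  have hnd : B.Nondegenerate := by
    refine ⟨fun v hv => h.nondeg v fun u => hv u, fun w hw => h.nondeg w fun u => ?_⟩
    rw [hsym, show f w u = 0 from hw u, map_zero]
  obtain ⟨b, hb⟩ := Forms.exists_orthonormal_basis τ hne h.invol B hS hnd
  refine ⟨b.reindex (finCongr (Module.finrank_fin_fun F)), fun i j => ?_⟩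
  have := hb ((finCongr (Module.finrank_fin_fun F)).symm j) ((finCongr (Module.finrank_fin_fun F)).symm i)
  rw [hB] at this
  rw [Module.Basis.reindex_apply, Module.Basis.reindex_apply, this]
  by_cases hij : i = j
  · simp [hij]
  · rw [if_neg hij, if_neg (fun e => hij ((finCongr _).symm.injective e).symm)]

/-- Similitudes are recognised on a basis. -/
theorem similar_of_basis (h : IsSesq τ f) {κ : Type*} [Fintype κ] (b : Module.Basis κ F (Fin n → F))
    {X : Matrix (Fin n) (Fin n) F} {c : F}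
    (hb : ∀ i j, f (X *ᵥ b i) (X *ᵥ b j) = c * f (b i) (b j)) (u v : Fin n → F) :
    f (X *ᵥ u) (X *ᵥ v) = c * f u v := by
  rw [← b.sum_repr u, ← b.sum_repr v]
  simp only [Matrix.mulVec_sum, Matrix.mulVec_smul, h.sum_left, h.sum_right, h.smul_left, h.smul_right, hb,
    Finset.mul_sum]
  exact Finset.sum_congr rfl fun i _ => Finset.sum_congr rfl fun j _ => by ring

/-- A basis pairing an involutive permutation. -/
theorem exists_paired_basis_unitary [Finite F] (h : IsSesq τ f) (hne : τ ≠ RingHom.id F)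
    (hsym : ∀ u v, f u v = τ (f v u)) (π : Equiv.Perm (Fin n)) (hπ : ∀ i, π (π i) = i) :
    ∃ b : Module.Basis (Fin n) F (Fin n → F), ∀ i j, f (b i) (b j) = if j = π i then 1 else 0 := by
  classical
  let f' : (Fin n → F) → (Fin n → F) → F := fun u v => ∑ i, u i * τ (v (π i))
  have h' : IsSesq τ f' :=
    { invol := h.invol
      add_left := fun u u' v => by simp [f', add_mul, Finset.sum_add_distrib]
      smul_left := fun a u v => by simp [f', Finset.mul_sum, mul_assoc]
      add_right := fun u v v' => by simp [f', mul_add, Finset.sum_add_distrib]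
      smul_right := fun a u v => by
        simp only [f', Pi.smul_apply, smul_eq_mul, map_mul, Finset.mul_sum]
        exact Finset.sum_congr rfl fun i _ => by ring
      nondeg := fun v hv => funext fun i => by
        have := hv (Pi.single (π i) 1)
        simp only [f'] at this
        rw [Finset.sum_eq_single (π i)] at this
        · simpa [hπ, map_eq_zero_iff τ τ.injective] using this
        · intro j _ hj; simp [hj]
        · simp }
  have hsym' : ∀ u v, f' u v = τ (f' v u) := fun u v => by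
    simp only [f', map_sum, map_mul, h.invol]
    rw [← Equiv.sum_comp π]
    exact Finset.sum_congr rfl fun i _ => by rw [hπ, mul_comm]
  obtain ⟨e, he⟩ := exists_orthonormal h hne hsym
  obtain ⟨e', he'⟩ := exists_orthonormal h' hne hsym'
  let L : (Fin n → F) ≃ₗ[F] (Fin n → F) := e'.equiv e (Equiv.refl _)
  have hL : ∀ u v, f (L u) (L v) = f' u v := fun u v => by
    conv_rhs => rw [← e'.sum_repr u, ← e'.sum_repr v]
    conv_lhs => rw [← e'.sum_repr u, ← e'.sum_repr v]
    simp only [map_sum, map_smul, h.sum_left, h.sum_right, h.smul_left, h.smul_right, h'.sum_left, h'.sum_right,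
      h'.smul_left, h'.smul_right, L, Module.Basis.equiv_apply, Equiv.refl_apply, he, he']
  refine ⟨(Pi.basisFun F (Fin n)).map L, fun i j => ?_⟩
  rw [Module.Basis.map_apply, Module.Basis.map_apply, hL, Pi.basisFun_apply, Pi.basisFun_apply]
  show ∑ k, (Pi.single i 1 : Fin n → F) k * τ ((Pi.single j 1 : Fin n → F) (π k)) = _
  rw [Finset.sum_eq_single i]
  · by_cases hij : j = π i <;> simp [hij, Pi.single_apply, Ne.symm]
  · intro k _ hk; simp [hk]
  · simp

/-- What the index condition gives. -/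
theorem index_case [Fintype F] [NeZero n] {q₀ : ℕ} (hF : Fintype.card F = q₀ ^ 2) (h : IsSesq τ f)
    (hτ : ∀ a, τ a = a ^ q₀) (hne : τ ≠ RingHom.id F) (hsym : ∀ u v, f u v = τ (f v u)) {r : ℕ} [Fact r.Prime]
    (hrq : ¬ r ∣ q₀)
    (hΩ : r ∣ (Cfsg.Geo.similarityGroup f).relIndex (Cfsg.Geo.specialLinear (Fin n) F)) :
    ∃ i, 2 ≤ i ∧ i ≤ n ∧ (-(q₀ : ZMod r)) ^ i = -1 := by
  classical
  set SL := Cfsg.Geo.specialLinear (Fin n) F with hSL
  set G := Cfsg.Geo.similarityGroup f with hG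
  obtain ⟨e, he⟩ := exists_orthonormal h hne hsym
  obtain ⟨P, hP⟩ := Omega.exists_gl_of_bases (e : Module.Basis (Fin n) F (Fin n → F)) (Pi.basisFun F (Fin n))
  have hPf : ∀ u v, f ((P : Matrix (Fin n) (Fin n) F) *ᵥ u) ((P : Matrix (Fin n) (Fin n) F) *ᵥ v) =
      Cfsg.hermForm n F q₀ u v := by
    intro u v
    conv_lhs => rw [← (Pi.basisFun F (Fin n)).sum_repr u, ← (Pi.basisFun F (Fin n)).sum_repr v]
    simp only [Matrix.mulVec_sum, Matrix.mulVec_smul, hP, h.sum_left, h.sum_right, h.smul_left, h.smul_right, he,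
      mul_ite, mul_one, mul_zero, Finset.sum_ite_eq, Finset.mem_univ, if_true]
    simp [Cfsg.hermForm, hτ]
  have hmem : ∀ t : Cfsg.GU n F q₀, ∀ u v,
      f (((P * (t : GL (Fin n) F) * P⁻¹ : GL (Fin n) F) : Matrix (Fin n) (Fin n) F) *ᵥ u)
        (((P * (t : GL (Fin n) F) * P⁻¹ : GL (Fin n) F) : Matrix (Fin n) (Fin n) F) *ᵥ v) = f u v := by
    intro t u v
    have hcancel : ∀ w : Fin n → F, (P : Matrix (Fin n) (Fin n) F) *ᵥ (((P⁻¹ : GL (Fin n) F) : Matrix (Fin n) (Fin n) F) *ᵥ w) = w :=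
      fun w => by rw [Matrix.mulVec_mulVec, ← Units.val_mul, mul_inv_cancel, Units.val_one, Matrix.one_mulVec]
    simp only [Units.val_mul, ← Matrix.mulVec_mulVec]
    rw [hPf]
    refine (t.2 _ _).trans ?_
    rw [← hPf, hcancel, hcancel]
  let D : ↥(Cfsg.GU n F q₀) →* Fˣ := Matrix.GeneralLinearGroup.det.comp (Cfsg.GU n F q₀).subtype
  have hdet : ∀ t : Cfsg.GU n F q₀, Matrix.GeneralLinearGroup.det (P * (t : GL (Fin n) F) * P⁻¹) = D t := fun t => by
    show _ = Matrix.GeneralLinearGroup.det (t : GL (Fin n) F)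
    rw [map_mul, map_mul, map_inv, mul_comm (Matrix.GeneralLinearGroup.det P), mul_inv_cancel_right]
  have hrange : Nat.card D.range ∣ q₀ + 1 := by
    obtain ⟨u, hu⟩ := IsCyclic.exists_ofOrder_eq_natCard (α := D.range)
    rw [← hu]
    refine orderOf_dvd_of_pow_eq_one ?_
    obtain ⟨t, ht⟩ := u.2
    refine Subtype.ext (Units.ext ?_)
    rw [SubmonoidClass.coe_pow, ← ht, ← hdet, Units.val_pow_eq_pow_val]
    have hd := h.det_mul_det (X := ((P * (t : GL (Fin n) F) * P⁻¹ : GL (Fin n) F) : Matrix (Fin n) (Fin n) F))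
      (c := 1) fun u v => by rw [one_mul]; exact hmem t u v
    rw [one_pow, hτ, ← pow_succ'] at hd
    simp only [Units.val_mul, Matrix.coe_units_inv, Matrix.det_mul, Matrix.det_nonsing_inv, Ring.inverse_eq_inv'] at hd
    rw [mul_right_comm, mul_inv_cancel₀ P.det_ne_zero, one_mul] at hd
    simpa [Matrix.GeneralLinearGroup.val_det_apply] using hd
  have hker : Nat.card D.ker ∣ Nat.card ↥(G ⊓ SL) := by
    let ψ : D.ker →* ↥(G ⊓ SL) :=
      { toFun := fun t => ⟨P * (t.1 : GL (Fin n) F) * P⁻¹,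
          ⟨1, fun u v => by rw [Units.val_one, one_mul]; exact hmem t.1 u v⟩, (hdet t.1).trans t.2⟩
        map_one' := Subtype.ext (by simp)
        map_mul' := fun a b => Subtype.ext (by simp [mul_assoc]) }
    exact Subgroup.card_dvd_of_injective ψ fun a b hab => Subtype.ext (Subtype.ext (by
      have h1 := congrArg (fun t : ↥(G ⊓ SL) => (t : GL (Fin n) F)) hab
      simpa [ψ] using h1))
  have hO : Nat.card (Cfsg.GU n F q₀) ∣ Nat.card ↥(G ⊓ SL) * (q₀ + 1) := by
    rw [Subgroup.card_eq_card_quotient_mul_card_subgroup D.ker,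
      Nat.card_congr (QuotientGroup.quotientKerEquivRange D).toEquiv, mul_comm]
    exact mul_dvd_mul hker hrange
  have hidx : G.relIndex SL * Nat.card ↥(G ⊓ SL) = Nat.card SL := by
    rw [← Subgroup.inf_relIndex_right, ← Subgroup.index_mul_card ((G ⊓ SL).subgroupOf SL),
      Nat.card_congr (Subgroup.subgroupOfEquivOfLe inf_le_right).toEquiv]
    rfl
  have hGL : Nat.card SL * (Fintype.card F - 1) = Nat.card (GL (Fin n) F) := by
    rw [← ClassicalLinear.card_units (F := F), Subgroup.card_eq_card_quotient_mul_card_subgroup SL,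
      mul_comm]
    congr 1
    symm
    refine (Nat.card_congr (QuotientGroup.quotientKerEquivOfSurjective
      (Matrix.GeneralLinearGroup.det : GL (Fin n) F →* Fˣ) ?_).toEquiv)
    intro u
    refine ⟨Matrix.GeneralLinearGroup.mkOfDetNeZero
      (Matrix.diagonal fun i : Fin n => if i = ⟨0, Nat.pos_of_neZero n⟩ then (u : F) else 1) ?_, ?_⟩
    · rw [Matrix.det_diagonal, Finset.prod_ite_eq', if_pos (Finset.mem_univ _)]; exact u.ne_zero
    · refine Units.ext ?_
      rw [Matrix.GeneralLinearGroup.val_det_apply]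
      show Matrix.det (Matrix.diagonal _) = _
      rw [Matrix.det_diagonal, Finset.prod_ite_eq', if_pos (Finset.mem_univ _)]
  have hmain : r * Nat.card (Cfsg.GU n F q₀) * (Fintype.card F - 1) ∣ (q₀ + 1) * Nat.card (GL (Fin n) F) := by
    rw [← hGL, ← mul_assoc]
    refine mul_dvd_mul_right ?_ _
    calc r * Nat.card (Cfsg.GU n F q₀) ∣ G.relIndex SL * (Nat.card ↥(G ⊓ SL) * (q₀ + 1)) := mul_dvd_mul hΩ hO
      _ = (q₀ + 1) * Nat.card SL := by rw [← mul_assoc, hidx, mul_comm]
  rw [ClassicalForms.card_gu (F := F) (q := q₀) (by rw [Nat.card_eq_fintype_card, hF]), Matrix.card_GL_field,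
    prod_pow_sub le_rfl] at hmain
  generalize (∑ j : Fin n, (j : ℕ)) = a at hmain
  have hq₀ : 2 ≤ q₀ := by
    have := Fintype.one_lt_card (α := F)
    rw [hF] at this
    by_contra hlt
    interval_cases q₀ <;> simp at this
  have hint : ((r * (q₀ ^ (n * (n - 1) / 2) * ∏ i ∈ Finset.range n,
      (if Even i then q₀ ^ (i + 1) + 1 else q₀ ^ (i + 1) - 1)) * (q₀ ^ 2 - 1) : ℕ) : ℤ) ∣
      (((q₀ + 1) * ((q₀ ^ 2) ^ a * redProd (q₀ ^ 2) n n) : ℕ) : ℤ) :=
    Int.natCast_dvd_natCast.2 (by rwa [hF] at hmain)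
  have hg : ∀ i : ℕ, (((if Even i then q₀ ^ (i + 1) + 1 else q₀ ^ (i + 1) - 1 : ℕ)) : ℤ) =
      (q₀ : ℤ) ^ (i + 1) - (-1) ^ (i + 1) := by
    intro i
    rcases Nat.even_or_odd i with hi | hi
    · rw [if_pos hi, hi.add_one.neg_one_pow]; push_cast; ring
    · rw [if_neg (Nat.not_even_iff_odd.2 hi), hi.add_one.neg_one_pow, Nat.cast_sub (Nat.one_le_pow _ _ (by omega))]
      push_cast; ring
  have hsplit : ((redProd (q₀ ^ 2) n n : ℕ) : ℤ) = (∏ i ∈ Finset.range n, ((q₀ : ℤ) ^ (i + 1) - (-1) ^ (i + 1))) *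
      ∏ i ∈ Finset.range n, ((q₀ : ℤ) ^ (i + 1) + (-1) ^ (i + 1)) := by
    rw [redProd, Nat.cast_prod, Fin.prod_univ_eq_prod_range (fun j => (((q₀ ^ 2) ^ (n - j) - 1 : ℕ) : ℤ)) n,
      ← Finset.prod_range_reflect, ← Finset.prod_mul_distrib]
    refine Finset.prod_congr rfl fun i hi => ?_
    rw [Finset.mem_range] at hi
    rw [show n - (n - 1 - i) = i + 1 by omega, Nat.cast_sub (Nat.one_le_pow _ _ (by positivity))]
    push_cast
    rw [← pow_mul, mul_comm 2, pow_mul]
    have : ((-1 : ℤ) ^ (i + 1)) * (-1) ^ (i + 1) = 1 := by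
      rw [← mul_pow]; norm_num
    linear_combination this
  simp only [Nat.cast_mul, Nat.cast_pow, Nat.cast_prod, hg, hsplit, Nat.cast_add, Nat.cast_one,
    Nat.cast_sub (Nat.one_le_pow 2 q₀ (by omega))] at hint
  obtain ⟨k, hk⟩ : ∃ k, n = k + 1 := ⟨n - 1, by have := NeZero.ne n; omega⟩
  generalize n * (n - 1) / 2 = b at hint
  obtain ⟨J, hJ⟩ := hint
  have hgne : (∏ i ∈ Finset.range n, ((q₀ : ℤ) ^ (i + 1) - (-1) ^ (i + 1))) * ((q₀ : ℤ) ^ 2 - 1) ≠ 0 := by
    refine mul_ne_zero (Finset.prod_ne_zero_iff.2 fun i _ => ?_) ?_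
    · have h1 : (1 : ℤ) < (q₀ : ℤ) ^ (i + 1) := one_lt_pow₀ (by exact_mod_cast (show 1 < q₀ by omega)) (by omega)
      rcases neg_one_pow_eq_or ℤ (i + 1) with h | h <;> rw [h] <;> omega
    · have h1 : (1 : ℤ) < (q₀ : ℤ) ^ 2 := one_lt_pow₀ (by exact_mod_cast (show 1 < q₀ by omega)) (by omega)
      omega
  have hsucc : ∏ i ∈ Finset.range n, ((q₀ : ℤ) ^ (i + 1) + (-1) ^ (i + 1)) =
      (∏ i ∈ Finset.range k, ((q₀ : ℤ) ^ (i + 1 + 1) + (-1) ^ (i + 1 + 1))) * ((q₀ : ℤ) - 1) := by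
    rw [hk, Finset.prod_range_succ']
    ring
  rw [hsucc] at hJ
  have hkey : (r : ℤ) * (q₀ : ℤ) ^ b * J = ((q₀ : ℤ) ^ 2) ^ a *
      ∏ i ∈ Finset.range k, ((q₀ : ℤ) ^ (i + 1 + 1) + (-1) ^ (i + 1 + 1)) := by
    refine mul_left_cancel₀ hgne ?_
    linear_combination -hJ
  have hmod := congrArg (fun z : ℤ => (z : ZMod r)) hkey
  simp only [Int.cast_mul, Int.cast_natCast, Int.cast_pow, ZMod.natCast_self, zero_mul, Int.cast_prod] at hmod
  have hqr : (q₀ : ZMod r) ≠ 0 := by rwa [Ne, ZMod.natCast_eq_zero_iff]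
  obtain ⟨i, hi, hi0⟩ := Finset.prod_eq_zero_iff.1
    ((mul_eq_zero.1 hmod.symm).resolve_left (pow_ne_zero _ (pow_ne_zero _ hqr)))
  rw [Finset.mem_range] at hi
  refine ⟨i + 1 + 1, by omega, by omega, ?_⟩
  push_cast at hi0
  rw [neg_pow, eq_neg_of_add_eq_zero_left hi0, mul_neg, ← mul_pow]
  norm_num

/-- An element of order two with square root scalar, or one of any square in characteristic two, fixes a point. -/
theorem exists_fixed_square [Fintype F] [NeZero n] (h : IsSesq τ f) (hne : τ ≠ RingHom.id F)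
    (hsym : ∀ u v, f u v = τ (f v u)) (x : GL (Fin n) F) {s : F}
    (hz : (x : Matrix (Fin n) (Fin n) F) * x = (s * s) • 1) :
    ∃ g ∈ Cfsg.Geo.specialLinear (Fin n) F, g⁻¹ * x * g ∈ Cfsg.Geo.similarityGroup f := by
  classical
  have hz0 : s * s ≠ 0 := Omega.ne_zero_of_square hz
  have hs : s ≠ 0 := left_ne_zero_of_mul hz0
  obtain ⟨e, he⟩ := exists_orthonormal h hne hsym
  obtain ⟨α, β, _, _, _, _, w, c, hw0, hw1, hwl⟩ := Omega.exists_plane_form _ (s * s) hz0 hz
  have hcard : Fintype.card ((α × Fin 2) ⊕ β) = n := by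
    rw [← Module.finrank_eq_card_basis w, Module.finrank_fin_fun]
  let ε : Fin n ≃ (α × Fin 2) ⊕ β := Fintype.equivOfCardEq (by rw [hcard, Fintype.card_fin])
  let e₁ : Module.Basis ((α × Fin 2) ⊕ β) F (Fin n → F) := e.reindex ε
  have he₁ : ∀ i j, f (e₁ i) (e₁ j) = if i = j then 1 else 0 := fun i j => by
    simp only [e₁, Module.Basis.reindex_apply, he, EmbeddingLike.apply_eq_iff_eq]
  let sc : (α × Fin 2) ⊕ β → Fˣ := Sum.elim (fun p => if p.2 = 0 then 1 else Units.mk0 s hs) fun _ => 1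
  let b' := e₁.unitsSMul sc
  have hb0 : ∀ k, b' (.inl (k, 0)) = e₁ (.inl (k, 0)) := fun k => by
    simp [b', sc, Module.Basis.unitsSMul_apply, Units.smul_def]
  have hb1 : ∀ k, b' (.inl (k, 1)) = s • e₁ (.inl (k, 1)) := fun k => by
    simp [b', sc, Module.Basis.unitsSMul_apply, Units.smul_def]
  have hbl : ∀ l, b' (.inr l) = e₁ (.inr l) := fun l => by
    simp [b', sc, Module.Basis.unitsSMul_apply, Units.smul_def]
  obtain ⟨g, hg⟩ := Omega.exists_gl_of_bases w b'
  set y : GL (Fin n) F := g⁻¹ * x * g with hy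
  have y0 : ∀ k, (y : Matrix (Fin n) (Fin n) F) *ᵥ e₁ (.inl (k, 0)) = s • e₁ (.inl (k, 1)) := fun k => by
    rw [← hb0, ← hb1]
    refine Omega.conj_mulVec x g (hg _) ?_
    rw [hg, hw0]
  have y1 : ∀ k, (y : Matrix (Fin n) (Fin n) F) *ᵥ e₁ (.inl (k, 1)) = s • e₁ (.inl (k, 0)) := fun k => by
    have h1 : (y : Matrix (Fin n) (Fin n) F) *ᵥ b' (.inl (k, 1)) = (s * s) • b' (.inl (k, 0)) := by
      refine Omega.conj_mulVec x g (hg _) ?_
      rw [Matrix.mulVec_smul, hg, hw1]
    rw [hb0, hb1, Matrix.mulVec_smul, mul_smul] at h1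
    exact smul_right_injective _ hs h1
  have yl : ∀ l, (y : Matrix (Fin n) (Fin n) F) *ᵥ e₁ (.inr l) = c l • e₁ (.inr l) := fun l => by
    rw [← hbl]
    refine Omega.conj_mulVec x g (hg _) ?_
    rw [Matrix.mulVec_smul, hg, (hwl l).1]
  obtain ⟨g', hg', hgg⟩ := Omega.exists_sl_conj_of_square (g := g) hz0 hz
  refine ⟨g', hg', ?_⟩
  rw [hgg, ← hy]
  refine ⟨Units.mk0 (s * τ s) (mul_ne_zero hs (by rwa [Ne, map_eq_zero_iff τ τ.injective])),
    similar_of_basis h e₁ fun i j => ?_⟩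
  -- the image of a basis vector is a multiple of a basis vector
  let π : (α × Fin 2) ⊕ β → (α × Fin 2) ⊕ β := Sum.map (fun p => (p.1, if p.2 = 0 then 1 else 0)) id
  let t : (α × Fin 2) ⊕ β → F := Sum.elim (fun _ => s) c
  have hπ : ∀ i, (y : Matrix (Fin n) (Fin n) F) *ᵥ e₁ i = t i • e₁ (π i) := by
    rintro (⟨k, a⟩ | l)
    · fin_cases a
      · simpa [π, t] using y0 k
      · simpa [π, t] using y1 k
    · simpa [π, t] using yl l
  have hinj : Function.Injective π := by
    refine Function.Involutive.injective ?_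
    rintro (⟨k, a⟩ | l)
    · fin_cases a <;> simp [π]
    · simp [π]
  have ht : ∀ i, t i * τ (t i) = s * τ s := by
    rintro (p | l)
    · rfl
    · show c l * τ (c l) = s * τ s
      rcases mul_self_eq_mul_self_iff.1 (hwl l).2 with hcl | hcl <;> rw [hcl] <;> simp
  show f _ _ = s * τ s * _
  rw [hπ, hπ, h.smul_left, h.smul_right, he₁, he₁]
  by_cases hij : i = j
  · subst hij; simp [ht i]
  · rw [if_neg hij, if_neg (hinj.ne hij)]; ring

/-- The determinant of an element with non-square scalar square. -/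
theorem det_of_nonsquare {X : Matrix (Fin n) (Fin n) F} {z : F} (hz : z ≠ 0) (hX : X * X = z • 1)
    (hns : ¬ IsSquare z) : ∃ m, n = 2 * m ∧ X.det = (-z) ^ m := by
  classical
  obtain ⟨α, β, _, _, _, _, w, c, hw0, hw1, hwl⟩ := Omega.exists_plane_form X z hz hX
  haveI : IsEmpty β := ⟨fun l => hns ⟨c l, (hwl l).2.symm⟩⟩
  refine ⟨Fintype.card α, ?_, ?_⟩
  · have := Module.finrank_eq_card_basis w
    rw [Module.finrank_fin_fun, Fintype.card_sum, Fintype.card_prod, Fintype.card_eq_zero (α := β),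
      Fintype.card_fin] at this
    omega
  · let w' : Module.Basis (Fin 2 × α) F (Fin n → F) :=
      w.reindex ((Equiv.sumEmpty (α × Fin 2) β).trans (Equiv.prodComm α (Fin 2)))
    have hM : LinearMap.toMatrix w' w' (Matrix.toLin' X) = Matrix.blockDiagonal fun _ : α => !![0, z; 1, 0] := by
      ext ⟨i, a⟩ ⟨j, b⟩
      rw [LinearMap.toMatrix_apply, Matrix.toLin'_apply, Matrix.blockDiagonal_apply]
      have h0 : ∀ k, X *ᵥ w' (0, k) = w' (1, k) := fun k => by simp [w', hw0]
      have h1 : ∀ k, X *ᵥ w' (1, k) = z • w' (0, k) := fun k => by simp [w', hw1]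
      fin_cases j
      · simp only [Fin.zero_eta, h0, Module.Basis.repr_self]
        fin_cases i <;> by_cases hab : a = b <;> simp [hab, Finsupp.single_apply, Prod.ext_iff, eq_comm]
      · simp only [Fin.mk_one, h1, map_smul, Module.Basis.repr_self]
        fin_cases i <;> by_cases hab : a = b <;> simp [hab, Finsupp.single_apply, Prod.ext_iff, eq_comm]
    have := congrArg Matrix.det hM
    rw [LinearMap.det_toMatrix, LinearMap.det_toLin', Matrix.det_blockDiagonal] at this
    rw [this]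
    simp [Matrix.det_fin_two]

/-- A nonsquare `u` with `u ^ m = 1` gives an element of order two that is no similitude. -/
theorem exists_derangement_two [Fintype F] [NeZero n] {q₀ m : ℕ} (hF : Fintype.card F = q₀ ^ 2) (hq₀ : Odd q₀)
    (h2 : (2 : F) ≠ 0) (hτ : ∀ a, τ a = a ^ q₀) (hn : n = 2 * m) {u : F} (hu : ¬ IsSquare u) (hum : u ^ m = 1) :
    ∃ x ∈ Cfsg.Geo.specialLinear (Fin n) F,
      (∃ z : F, ((x ^ 2 : GL (Fin n) F) : Matrix (Fin n) (Fin n) F) = z • 1) ∧
      (∀ z : F, (x : Matrix (Fin n) (Fin n) F) ≠ z • 1) ∧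
      ∀ f, IsSesq τ f → (∀ u v, f u v = τ (f v u)) → ∀ c : F,
        (∀ u v, f ((x : Matrix (Fin n) (Fin n) F) *ᵥ u) ((x : Matrix (Fin n) (Fin n) F) *ᵥ v) = c * f u v) → False := by
  classical
  have hm : 0 < m := by have := NeZero.ne n; omega
  let ε : Fin 2 × Fin m ≃ Fin n := Fintype.equivOfCardEq (by simp [hn])
  let B : Matrix (Fin 2 × Fin m) (Fin 2 × Fin m) F := Matrix.blockDiagonal fun _ => !![0, -u; 1, 0]
  let T : Matrix (Fin n) (Fin n) F := Matrix.reindexAlgEquiv F F ε B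
  have hdet : T.det = 1 := by
    rw [Matrix.det_reindexAlgEquiv, Matrix.det_blockDiagonal]
    simp [Matrix.det_fin_two, hum]
  have hTT : T * T = (-u) • 1 := by
    rw [← map_mul, ← Matrix.blockDiagonal_mul]
    have : (fun _ : Fin m => (!![0, -u; 1, 0] : Matrix (Fin 2) (Fin 2) F) * !![0, -u; 1, 0]) =
        (-u) • (1 : Fin m → Matrix (Fin 2) (Fin 2) F) := funext fun _ => by
      ext i j; fin_cases i <;> fin_cases j <;> simp [Matrix.mul_apply, Fin.sum_univ_two]
    rw [this, Matrix.blockDiagonal_smul, Matrix.blockDiagonal_one, map_smul, map_one]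
  let x : GL (Fin n) F := Matrix.GeneralLinearGroup.mkOfDetNeZero T (by rw [hdet]; exact one_ne_zero)
  have hxx : ((x ^ 2 : GL (Fin n) F) : Matrix (Fin n) (Fin n) F) = (-u) • 1 := by
    rw [pow_two, Units.val_mul]; exact hTT
  refine ⟨x, Omega.mem_specialLinear.2 hdet, ⟨-u, hxx⟩, fun a ha => ?_, fun f hf hsym c hc => ?_⟩
  · have h1 : T (ε (1, ⟨0, hm⟩)) (ε (0, ⟨0, hm⟩)) = 1 := by simp [T, B]
    rw [show T = a • 1 from ha] at h1
    simp [Matrix.one_apply] at h1
  · have hfix : τ c = c := multiplier_fixed hf hsym hc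
    have hc2 : c ^ 2 = -u * τ (-u) := hf.multiplier_pow hc hxx
    rw [hτ] at hfix hc2
    have hu0 : u ≠ 0 := by rintro rfl; exact hu (IsSquare.zero)
    have hc0 : c ≠ 0 := by
      rintro rfl
      rw [zero_pow two_ne_zero, eq_comm, mul_eq_zero, pow_eq_zero_iff hq₀.pos.ne'] at hc2
      simp [hu0] at hc2
    obtain ⟨t, ht⟩ := hq₀
    refine hu ((FiniteField.isSquare_iff (fun h => h2 ?_) hu0).2 ?_)
    · haveI : CharP F 2 := (ringChar.eq_iff).1 h
      exact CharTwo.two_eq_zero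
    have hc1 : c ^ (2 * t) = 1 := by
      refine mul_left_cancel₀ hc0 ?_
      rw [mul_one, ← pow_succ', ← ht]
      exact hfix
    have hexp : Fintype.card F / 2 = (2 * t + 2) * t := by
      rw [hF, ht]
      have : (2 * t + 1) ^ 2 = 2 * ((2 * t + 2) * t) + 1 := by ring
      rw [this]; omega
    have heven : Even ((2 * t + 2) * t) := ⟨(t + 1) * t, by ring⟩
    rw [hexp, ← heven.neg_pow u, pow_mul, show 2 * t + 2 = q₀ + 1 by omega, pow_succ', ← hc2, ← pow_mul]
    exact hc1

end CfsgLib.Derangements.FormPrime
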